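import Cfsg.Agent.H79.PSLSpec.Pairs

/-!
# The centraliser of an involution is dihedral and all involutions are conjugate
-/

set_option autoImplicit false

namespace Cfsg.Agent.H79.PSLSpec

open Subgroup

variable {G : Type*} [Group G] [Finite G] {a b q p : ℕ}

lemma Setup.bq_eq (h : Setup G a b q p) : ∃ n, b * q = 1 + a * n := by
  rcases h.arith with ⟨h1, h2⟩ | ⟨h1, h2⟩
  · exact ⟨2 * a + 3, by rw [h1, h2]; ring⟩
  · obtain ⟨q', hq'⟩ : ∃ q', q = q' + 1 := ⟨q - 1, by have := h.q_five; omega⟩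
    refine ⟨2 * b - 1, ?_⟩
    obtain ⟨d, hd⟩ : ∃ d, 2 * b = d + 1 := ⟨2 * b - 1, by have := h.b_two; omega⟩
    rw [show 2 * b - 1 = d by omega, show q = d + 2 by omega, ← h1]
    nlinarith

namespace Fus

variable (c : Fus G a b q p)

/-- The outer half of `C(t)` fixes only `t` in `A`. -/
abbrev Fixed : Prop := ∀ y ∈ c.C, y ∉ c.A → ∀ x ∈ c.A, Commute y x → x ^ 2 = 1

lemma ss : c.s * c.s = 1 := sq_of_orderOf_two c.hs

lemma sconj_mem {x : G} (hx : x ∈ c.A) : c.s * x * c.s ∈ c.A := by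
  have := c.conj_mem_A c.sC hx
  rwa [inv_eq_of_mul_eq_one_right c.ss] at this

/-- `x ↦ (sx)²`. -/
def phi : c.A →* G := MonoidHom.mk' (fun x => c.s * x * c.s * x) fun x y => by
  show c.s * (x * y : G) * c.s * (x * y : G) = c.s * x * c.s * x * (c.s * y * c.s * y)
  have h1 : (x : G) * (c.s * y * c.s) = c.s * y * c.s * x := c.A_comm x.2 (c.sconj_mem y.2)
  calc c.s * (x * y : G) * c.s * (x * y : G)
      = c.s * x * c.s * (c.s * y * c.s) * x * y := by
        simp only [mul_assoc, ← mul_assoc c.s c.s, c.ss, one_mul]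
    _ = c.s * x * c.s * ((x : G) * (c.s * y * c.s)) * y := by rw [h1]; group
    _ = c.s * x * c.s * x * (c.s * y * c.s * y) := by group

@[simp] lemma phi_apply (x : c.A) : c.phi x = c.s * x * c.s * x := rfl

/-- `x ↦ sxsx⁻¹`. -/
def psi : c.A →* c.A :=
  MonoidHom.mk' (fun x => ⟨c.s * x * c.s * (x : G)⁻¹, mul_mem (c.sconj_mem x.2) (inv_mem x.2)⟩)
    fun x y => Subtype.ext (by
      show c.s * (x * y : G) * c.s * (x * y : G)⁻¹ =
        c.s * x * c.s * (x : G)⁻¹ * (c.s * y * c.s * (y : G)⁻¹)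
      have h1 : (x : G)⁻¹ * (c.s * y * c.s * (y : G)⁻¹) = (c.s * y * c.s * (y : G)⁻¹) * (x : G)⁻¹ :=
        c.A_comm (inv_mem x.2) (mul_mem (c.sconj_mem y.2) (inv_mem y.2))
      rw [mul_assoc (c.s * x * c.s), h1, mul_inv_rev]
      simp only [mul_assoc, ← mul_assoc c.s c.s, c.ss, one_mul])

lemma psi_apply (x : c.A) : (c.psi x : G) = c.s * x * c.s * (x : G)⁻¹ := rfl

lemma phi_val (hf : c.Fixed) (x : c.A) : c.phi x = 1 ∨ c.phi x = c.t := by
  have hy : c.s * x * c.s * x ∈ c.A := mul_mem (c.sconj_mem x.2) x.2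
  refine c.eq_t (x := c.phi x) hy (hf c.s c.sC c.sA (c.s * x * c.s * x) hy ?_)
  show c.s * (c.s * x * c.s * x) = c.s * x * c.s * x * c.s
  have h1 : c.s * x * c.s * x = (x : G) * (c.s * x * c.s) := c.A_comm (c.sconj_mem x.2) x.2
  conv_lhs => rw [show c.s * (c.s * x * c.s * x) = c.s * c.s * x * c.s * x by group, c.ss, one_mul]
  rw [h1]
  simp only [mul_assoc, c.ss, mul_one]

lemma phi_t : c.phi ⟨c.t, c.tA⟩ = 1 := by
  show c.s * c.t * c.s * c.t = 1
  rw [c.s_comm.eq, mul_assoc c.t, c.ss, mul_one, c.t_sq]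

lemma card_ker_phi (hf : c.Fixed) : Nat.card c.phi.ker = a ∨ 2 * Nat.card c.phi.ker = a := by
  have h1 := Subgroup.index_mul_card c.phi.ker
  rw [Subgroup.index_ker, c.A_card] at h1
  have h2 : Nat.card c.phi.range ∣ 2 := by
    refine (Subgroup.card_dvd_of_le (K := zpowers c.t) ?_).trans (by rw [Nat.card_zpowers, c.ht])
    rintro _ ⟨x, rfl⟩
    rcases c.phi_val hf x with e | e <;> rw [e]
    exacts [one_mem _, mem_zpowers _]
  rcases (Nat.dvd_prime Nat.prime_two).1 h2 with e | e <;> rw [e] at h1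
  · exact Or.inl (by omega)
  · exact Or.inr h1

lemma card_range_psi (hf : c.Fixed) : c.psi.range.index = 2 ∧ 2 * Nat.card c.psi.range = a := by
  have hker : c.psi.ker = zpowers ⟨c.t, c.tA⟩ := by
    ext x
    rw [MonoidHom.mem_ker]
    constructor
    · intro hx
      have h1 : c.s * (x : G) * c.s = x := by
        have := congrArg Subtype.val hx
        rw [c.psi_apply] at this
        exact mul_inv_eq_one.1 this
      have h2 : Commute c.s (x : G) := by
        show c.s * x = x * c.s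
        conv_rhs => rw [← h1, mul_assoc, c.ss, mul_one]
      rcases c.eq_t x.2 (hf c.s c.sC c.sA x x.2 h2) with e | e
      · rw [show x = 1 from Subtype.ext e]; exact one_mem _
      · rw [show x = ⟨c.t, c.tA⟩ from Subtype.ext e]; exact mem_zpowers _
    · intro hx
      obtain ⟨k, rfl⟩ := hx
      show c.psi (⟨c.t, c.tA⟩ ^ k) = 1
      suffices e : c.psi ⟨c.t, c.tA⟩ = 1 by rw [map_zpow, e, one_zpow]
      refine Subtype.ext ?_
      show c.s * c.t * c.s * c.t⁻¹ = 1
      rw [c.s_comm.eq, mul_assoc c.t, c.ss, mul_one, mul_inv_cancel]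
  have h1 := Subgroup.index_mul_card c.psi.ker
  rw [Subgroup.index_ker, c.A_card, hker, Nat.card_zpowers,
    show orderOf (⟨c.t, c.tA⟩ : c.A) = 2 by rw [← Subgroup.orderOf_coe]; exact c.ht] at h1
  refine ⟨?_, by omega⟩
  have h2 := Subgroup.index_mul_card c.psi.range
  rw [c.A_card] at h2
  exact Nat.eq_of_mul_eq_mul_right (Nat.card_pos (α := c.psi.range)) (by omega)

lemma range_psi_le (x : c.A) : c.psi x ∈ c.phi.ker := by
  rw [MonoidHom.mem_ker, phi_apply, psi_apply]
  have h1 : (x : G) * (c.s * (x : G)⁻¹ * c.s) = c.s * (x : G)⁻¹ * c.s * x :=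
    c.A_comm x.2 (c.sconj_mem (inv_mem x.2))
  calc c.s * (c.s * x * c.s * (x : G)⁻¹) * c.s * (c.s * x * c.s * (x : G)⁻¹)
      = ((x : G) * (c.s * (x : G)⁻¹ * c.s)) * c.s * x * c.s * (x : G)⁻¹ := by
        simp only [mul_assoc, ← mul_assoc c.s c.s, c.ss, one_mul]
    _ = c.s * (x : G)⁻¹ * c.s * x * (c.s * x * c.s) * (x : G)⁻¹ := by rw [h1]; group
    _ = c.s * (x : G)⁻¹ * c.s * (c.s * x * c.s) := by
        rw [mul_assoc _ (x : G) (c.s * x * c.s), c.A_comm x.2 (c.sconj_mem x.2), ← mul_assoc,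
          mul_inv_cancel_right]
    _ = 1 := by
        simp only [mul_assoc, ← mul_assoc c.s c.s, c.ss, one_mul, inv_mul_cancel_left]

lemma conj_s (x : c.A) : (x : G) * c.s * (x : G)⁻¹ = c.s * c.psi x := by
  rw [psi_apply]
  simp only [← mul_assoc, c.ss, one_mul]

/-- An involution of `C(t)` other than `t` is `s` times an element of `ker φ`. -/
lemma invol_form {w : G} (hw : w ∈ c.C) (h2 : orderOf w = 2) (hwt : w ≠ c.t) :
    ∃ x : c.A, w = c.s * x ∧ c.phi x = 1 := by
  rcases c.split hw with hA | ⟨x, hx, rfl⟩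
  · rcases c.eq_t hA (by rw [sq, sq_of_orderOf_two h2]) with e | e
    · exact absurd e (ne_one_of_orderOf_two h2)
    · exact absurd e hwt
  · refine ⟨⟨x, hx⟩, rfl, ?_⟩
    have := sq_of_orderOf_two h2
    show c.s * x * c.s * x = 1
    rw [← this]
    group

lemma s_mul_notMem {x : G} (hx : x ∈ c.A) : c.s * x ∉ c.A := fun h =>
  c.sA (by simpa using mul_mem h (inv_mem hx))

lemma s_mul_invol (x : c.A) (hx : c.phi x = 1) : orderOf (c.s * (x : G)) = 2 := by
  refine orderOf_eq_prime ?_ fun e => c.s_mul_notMem x.2 (e ▸ one_mem _)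
  rw [sq, ← hx, phi_apply]
  group

/-- The commutation partners of an outer involution in `C(t)`. -/
lemma centralizer_outside (hf : c.Fixed) {y w : G} (hy : y ∈ c.C) (hyA : y ∉ c.A)
    (hyy : y * y = 1) (hw : w ∈ c.C) (hyw : Commute y w) :
    w = 1 ∨ w = c.t ∨ w = y ∨ w = y * c.t := by
  by_cases hwA : w ∈ c.A
  · rcases c.eq_t hwA (hf y hy hyA w hwA hyw) with e | e
    · exact Or.inl e
    · exact Or.inr (Or.inl e)
  · have hm := c.mul_mem_A hy hyA hw hwA
    have hwe : w = y * (y * w) := by rw [← mul_assoc, hyy, one_mul]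
    rcases c.eq_t hm (hf y hy hyA _ hm ((Commute.refl y).mul_right hyw)) with e | e
    · exact Or.inr (Or.inr (Or.inl (by rw [hwe, e, mul_one])))
    · exact Or.inr (Or.inr (Or.inr (by rw [hwe, e])))

lemma commute_outside (hf : c.Fixed) {y v w : G} (hy : y ∈ c.C) (hyA : y ∉ c.A) (hyy : y * y = 1)
    (hv : v ∈ c.C) (hyv : Commute y v) (hw : w ∈ c.C) (hyw : Commute y w) : Commute v w := by
  have hyt : Commute y c.t := c.mem_C.1 hy
  have key : ∀ z, z ∈ c.C → Commute y z → Commute z y ∧ Commute z c.t := fun z hz hyz =>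
    ⟨hyz.symm, c.mem_C.1 hz⟩
  rcases c.centralizer_outside hf hy hyA hyy hw hyw with rfl | rfl | rfl | rfl
  · exact Commute.one_right v
  · exact (key v hv hyv).2
  · exact (key v hv hyv).1
  · exact (key v hv hyv).1.mul_right (key v hv hyv).2

lemma wt_abelian [Fintype G] (hab : ∀ u ∈ c.C, ∀ v ∈ c.C, Commute u v) : wt c.t = 3 := by
  classical
  have h1 : invs c.t = {c.t, c.s, c.s * c.t} := by
    ext w
    simp only [mem_invs, Finset.mem_insert, Finset.mem_singleton]
    constructor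
    · rintro ⟨hw, hwt⟩
      by_cases e : w = c.t
      · exact Or.inl e
      obtain ⟨x, rfl, hx⟩ := c.invol_form (c.mem_C.2 hwt.symm) hw e
      have hx2 : (x : G) ^ 2 = 1 := by
        rw [phi_apply, (hab _ c.sC _ (c.A_le x.2)).eq, mul_assoc (x : G), c.ss, mul_one] at hx
        rw [sq]; exact hx
      rcases c.eq_t x.2 hx2 with e | e <;> rw [e]
      · simp
      · simp
    · rintro (rfl | rfl | rfl)
      · exact ⟨c.ht, Commute.refl _⟩
      · exact ⟨c.hs, c.s_comm.symm⟩
      · exact ⟨c.s_mul_invol ⟨c.t, c.tA⟩ c.phi_t, c.s_comm.symm.mul_right (Commute.refl _)⟩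
  have h2 : prs c.t = ∅ := by
    refine Finset.eq_empty_of_forall_notMem fun z hz => ?_
    simp only [mem_prs, mem_invs] at hz
    exact hz.2 (hab _ (c.mem_C.2 hz.1.1.2.symm) _ (c.mem_C.2 hz.1.2.2.symm))
  rw [wt, h2, h1, Finset.card_empty, add_zero]
  refine Finset.card_eq_three.2 ⟨c.t, c.s, c.s * c.t, ?_, ?_, ?_, rfl⟩
  · exact fun e => c.g_ne e.symm
  · exact fun e => c.s_mul_notMem c.tA (e ▸ c.tA)
  · exact fun e => c.t_ne_one (mul_eq_left.1 e.symm)

lemma wt_fixed [Fintype G] (hf : c.Fixed) :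
    wt c.t + Nat.card c.phi.ker = 1 + Nat.card c.phi.ker * Nat.card c.phi.ker := by
  classical
  set k := Nat.card c.phi.ker
  let J : Finset G := (Finset.univ : Finset c.phi.ker).image
    fun x : c.phi.ker => c.s * ((x : c.A) : G)
  have hJ : J.card = k := by
    rw [Finset.card_image_of_injective _ fun x y e => Subtype.ext (Subtype.ext (mul_left_cancel e)),
      Finset.card_univ, ← Nat.card_eq_fintype_card]
  have hmJ : ∀ w, w ∈ J ↔ ∃ x : c.A, c.phi x = 1 ∧ c.s * (x : G) = w := by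
    intro w
    simp only [J, Finset.mem_image, Finset.mem_univ, true_and]
    exact ⟨fun ⟨x, e⟩ => ⟨x.1, x.2, e⟩, fun ⟨x, hx, e⟩ => ⟨⟨x, hx⟩, e⟩⟩
  have htJ : c.t ∉ J := fun h => by
    obtain ⟨x, -, e⟩ := (hmJ _).1 h
    exact c.s_mul_notMem x.2 (e ▸ c.tA)
  have h1 : invs c.t = insert c.t J := by
    ext w
    simp only [mem_invs, Finset.mem_insert, hmJ]
    constructor
    · rintro ⟨hw, hwt⟩
      by_cases e : w = c.t
      · exact Or.inl e
      obtain ⟨x, rfl, hx⟩ := c.invol_form (c.mem_C.2 hwt.symm) hw e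
      exact Or.inr ⟨x, hx, rfl⟩
    · rintro (rfl | ⟨x, hx, rfl⟩)
      · exact ⟨c.ht, Commute.refl _⟩
      · exact ⟨c.s_mul_invol x hx, (c.mem_C.1 (mul_mem c.sC (c.A_le x.2)) : Commute _ _).symm⟩
  have hfib : ∀ v ∈ J, (J.filter fun w => Commute v w).card = 2 := by
    intro v hv
    obtain ⟨x, hx, rfl⟩ := (hmJ v).1 hv
    have hvC : c.s * (x : G) ∈ c.C := mul_mem c.sC (c.A_le x.2)
    have hvt : c.s * (x : G) * c.t ∈ J := by
      refine (hmJ _).2 ⟨x * ⟨c.t, c.tA⟩, by rw [map_mul, hx, c.phi_t, one_mul], ?_⟩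
      show c.s * ((x : G) * c.t) = _
      rw [mul_assoc]
    rw [show (J.filter fun w => Commute (c.s * (x : G)) w) =
      {c.s * (x : G), c.s * (x : G) * c.t} from ?_, Finset.card_pair fun e => c.t_ne_one (mul_eq_left.1 e.symm)]
    ext w
    simp only [Finset.mem_filter, Finset.mem_insert, Finset.mem_singleton]
    constructor
    · rintro ⟨hw, hvw⟩
      obtain ⟨y, hy, rfl⟩ := (hmJ w).1 hw
      rcases c.centralizer_outside hf hvC (c.s_mul_notMem x.2)
        (sq_of_orderOf_two (c.s_mul_invol x hx)) (mul_mem c.sC (c.A_le y.2)) hvw with e | e | e | e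
      · exact absurd (e ▸ one_mem _) (c.s_mul_notMem y.2)
      · exact absurd (e ▸ c.tA) (c.s_mul_notMem y.2)
      · exact Or.inl e
      · exact Or.inr e
    · rintro (rfl | rfl)
      · exact ⟨hv, Commute.refl _⟩
      · exact ⟨hvt, (Commute.refl _).mul_right (c.mem_C.1 hvC)⟩
  have h2 : (prs c.t).card + 2 * k = k * k := by
    have e1 : prs c.t = (J ×ˢ J).filter fun z => ¬ Commute z.1 z.2 := by
      ext z
      simp only [mem_prs, h1, Finset.mem_filter, Finset.mem_product]
      have hc : ∀ w ∈ insert c.t J, Commute c.t w := fun w hw =>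
        (mem_invs.1 (h1.symm ▸ hw)).2
      constructor
      · rintro ⟨⟨hz1, hz2⟩, hne⟩
        exact ⟨⟨(Finset.mem_insert.1 hz1).resolve_left fun e => hne (e ▸ hc _ hz2),
          (Finset.mem_insert.1 hz2).resolve_left fun e => hne (e ▸ (hc _ hz1).symm)⟩, hne⟩
      · rintro ⟨⟨hz1, hz2⟩, hne⟩
        exact ⟨⟨Finset.mem_insert_of_mem hz1, Finset.mem_insert_of_mem hz2⟩, hne⟩
    have e2 : ((J ×ˢ J).filter fun z => Commute z.1 z.2).card = 2 * k := by
      rw [Finset.card_filter, Finset.sum_product,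
        Finset.sum_congr rfl fun v hv => ((Finset.card_filter _ _).symm.trans (hfib v hv)),
        Finset.sum_const, smul_eq_mul, hJ, mul_comm]
    have e3 := Finset.card_filter_add_card_filter_not (s := J ×ˢ J)
      (fun z : G × G => Commute z.1 z.2)
    rw [e2, ← e1, Finset.card_product, hJ] at e3
    omega
  rw [wt, h1, Finset.card_insert_of_notMem htJ, hJ]
  omega

/-- An involution not conjugate to `t` has an abelian centraliser of order four. -/
lemma small_centralizer (hf : c.Fixed) {u : G} (hu : orderOf u = 2)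
    (hne : ¬ ∃ h, h * c.t * h⁻¹ = u) :
    Nat.card (centralizer ({u} : Set G)) = 4 ∧
      ∀ v w, Commute u v → Commute u w → Commute v w := by
  classical
  have := Fact.mk Nat.prime_two
  let : Fintype G := Fintype.ofFinite G
  have h2 : IsPGroup 2 (centralizer ({u} : Set G)) := by
    refine IsPGroup.of_card (n := (Nat.card (centralizer ({u} : Set G))).primeFactorsList.length)
      (Nat.eq_prime_pow_of_unique_prime_dvd Nat.card_pos.ne' fun {r} hr hrd => ?_)
    by_contra hr2
    have := Fact.mk hr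
    obtain ⟨z, hz⟩ := exists_prime_orderOf_dvd_card' r hrd
    have hz' : orderOf (z : G) = r := by rw [Subgroup.orderOf_coe, hz]
    have hzu : Commute (z : G) u := mem_centralizer_singleton_iff.1 z.2
    have hra : r ∣ a := hz' ▸ c.setup.sep (ne_one_of_orderOf_two hu) (hu ▸ c.setup.a_even) hzu.symm
    obtain ⟨z₀, hz₀, hz₀o, h, he⟩ := c.exists_zpowers_conj hr hr2 hz' hra
    have hyz : Commute (h⁻¹ * u * h) z₀ :=
      ((commute_conj_left h z₀ u).1 (commute_of_zpowers_eq he hzu.symm).symm).symm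
    have hz₀1 : z₀ ≠ 1 := fun e => by rw [e, orderOf_one] at hz₀o; exact hr.ne_one hz₀o.symm
    have hyC := c.centralizer_le hz₀ hz₀1 (mem_centralizer_singleton_iff.2 hyz)
    have hyo : orderOf (h⁻¹ * u * h) = 2 := by
      rw [← orderOf_conj' h, show h * (h⁻¹ * u * h) * h⁻¹ = u by group, hu]
    by_cases hyA : h⁻¹ * u * h ∈ c.A
    · rcases c.eq_t hyA (by rw [sq, sq_of_orderOf_two hyo]) with e | e
      · exact ne_one_of_orderOf_two hyo e
      · exact hne ⟨h, by rw [← e]; group⟩
    · have := orderOf_dvd_iff_pow_eq_one.2 (hf _ hyC hyA z₀ hz₀ hyz)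
      rw [hz₀o] at this
      exact hr2 ((Nat.prime_dvd_prime_iff_eq hr Nat.prime_two).1 this)
  obtain ⟨Q, hQ⟩ := h2.exists_le_sylow
  obtain ⟨h, hh⟩ := MulAction.exists_smul_eq G c.S Q
  set y := h⁻¹ * u * h with hy
  have hue : u = h * y * h⁻¹ := by rw [hy]; group
  have hle : ∀ w, Commute y w → w ∈ c.C := by
    intro w hw
    have h3 : h * w * h⁻¹ ∈ (Q : Subgroup G) := hQ (mem_centralizer_singleton_iff.2 (by
      rw [hue]; exact ((commute_conj_iff h y w).2 hw).symm))
    rw [← hh, Sylow.coe_subgroup_smul, Subgroup.mem_pointwise_smul_iff_inv_smul_mem] at h3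
    refine c.S_le ?_
    simpa [MulAut.conj, MulAut.smul_def, mul_assoc] using h3
  have hyC : y ∈ c.C := hle y (Commute.refl y)
  have hyo : orderOf y = 2 := by rw [← orderOf_conj' h y, ← hue, hu]
  have hyy := sq_of_orderOf_two hyo
  have hyt : y ≠ c.t := fun e => hne ⟨h, by rw [← e, hue]⟩
  have hyA : y ∉ c.A := fun hm => by
    rcases c.eq_t hm (by rw [sq, hyy]) with e | e
    · exact ne_one_of_orderOf_two hyo e
    · exact hyt e
  refine ⟨?_, fun v w hv hw => ?_⟩
  · rw [show Nat.card (centralizer ({u} : Set G)) = Nat.card (centralizer ({y} : Set G)) from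
      Nat.card_congr ((MulAut.conj h⁻¹).toEquiv.subtypeEquiv fun w => by
        rw [mem_centralizer_singleton_iff, mem_centralizer_singleton_iff]
        show Commute w u ↔ Commute (h⁻¹ * w * h⁻¹⁻¹) y
        rw [hue, inv_inv, ← commute_conj_iff h (h⁻¹ * w * h),
          show h * (h⁻¹ * w * h) * h⁻¹ = w by group])]
    have e : (Finset.univ.filter fun w : G => w ∈ centralizer ({y} : Set G)) =
        {1, c.t, y, y * c.t} := by
      ext w
      simp only [Finset.mem_filter, Finset.mem_univ, true_and, Finset.mem_insert,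
        Finset.mem_singleton, mem_centralizer_singleton_iff]
      constructor
      · intro hw
        have hyw : Commute y w := Commute.symm hw
        exact c.centralizer_outside hf hyC hyA hyy (hle w hyw) hyw
      · have hyt' : Commute c.t y := (c.mem_C.1 hyC).symm
        rintro (rfl | rfl | rfl | rfl)
        · exact Commute.one_left y
        · exact hyt'
        · rfl
        · exact (Commute.refl y).mul_left hyt'
    rw [Nat.card_eq_fintype_card, Fintype.card_subtype, e]
    rw [Finset.card_insert_of_notMem, Finset.card_insert_of_notMem, Finset.card_pair]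
    · exact fun e => c.t_ne_one (mul_eq_left.1 e.symm)
    · simp only [Finset.mem_insert, Finset.mem_singleton, not_or]
      exact ⟨hyt.symm, fun e => ne_one_of_orderOf_two hyo (mul_eq_right.1 e.symm)⟩
    · simp only [Finset.mem_insert, Finset.mem_singleton, not_or]
      refine ⟨c.t_ne_one.symm, (ne_one_of_orderOf_two hyo).symm, fun e => hyt ?_⟩
      rw [eq_inv_of_mul_eq_one_left e.symm, inv_eq_of_mul_eq_one_right c.t_sq]
  · rw [hue] at hv hw
    have hv' := (commute_conj_left h y v).1 hv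
    have hw' := (commute_conj_left h y w).1 hw
    rw [← commute_conj_iff h⁻¹, inv_inv]
    exact c.commute_outside hf hyC hyA hyy (hle _ hv') hv' (hle _ hw') hw'

lemma uniq (h : c.Fixed ∨ ∀ u ∈ c.C, ∀ v ∈ c.C, Commute u v)
    (hcl : ¬ c.Fixed → ∀ u, orderOf u = 2 → ∃ h, h * c.t * h⁻¹ = u) (u u' v w : G)
    (hu : orderOf u = 2) (hu' : orderOf u' = 2) (_ : orderOf v = 2) (_ : orderOf w = 2)
    (huv : Commute u v) (huw : Commute u w) (hu'v : Commute u' v) (hu'w : Commute u' w)
    (hne : ¬ Commute v w) : u = u' := by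
  by_cases hcj : ∃ h, h * c.t * h⁻¹ = u
  · obtain ⟨k, rfl⟩ := hcj
    have hv : k⁻¹ * v * k ∈ c.C := c.mem_C.2 ((commute_conj_left k c.t v).1 huv).symm
    have hw : k⁻¹ * w * k ∈ c.C := c.mem_C.2 ((commute_conj_left k c.t w).1 huw).symm
    have hne' : ¬ Commute (k⁻¹ * v * k) (k⁻¹ * w * k) := fun e => hne (by
      rw [← commute_conj_iff k⁻¹, inv_inv]; exact e)
    rcases h with hf | hab
    swap
    · exact absurd (hab _ hv _ hw) hne'
    by_contra huu
    set y := k⁻¹ * u' * k with hy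
    have hyo : orderOf y = 2 := by
      rw [← orderOf_conj' k y, show k * y * k⁻¹ = u' by rw [hy]; group, hu']
    have hyt : y ≠ c.t := fun e => huu (by rw [← e, hy]; group)
    have hyv : Commute y (k⁻¹ * v * k) := by
      rw [← commute_conj_iff k, show k * y * k⁻¹ = u' by rw [hy]; group,
        show k * (k⁻¹ * v * k) * k⁻¹ = v by group]
      exact hu'v
    have hyw : Commute y (k⁻¹ * w * k) := by
      rw [← commute_conj_iff k, show k * y * k⁻¹ = u' by rw [hy]; group,
        show k * (k⁻¹ * w * k) * k⁻¹ = w by group]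
      exact hu'w
    have hx := mul_mem hv hw
    by_cases hyC : y ∈ c.C
    · refine hne' (c.commute_outside hf hyC (fun hm => ?_) (sq_of_orderOf_two hyo) hv hyv hw hyw)
      rcases c.eq_t hm (by rw [sq, sq_of_orderOf_two hyo]) with e | e
      · exact ne_one_of_orderOf_two hyo e
      · exact hyt e
    · have hvA : k⁻¹ * v * k ∉ c.A := fun hm => by
        rcases c.split hw with hwA | ⟨x, hx, e⟩
        · exact hne' (c.A_comm hm hwA)
        · rcases c.eq_t hm (by
            rw [sq]; exact sq_of_orderOf_two (by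
              rw [← orderOf_conj' k, show k * (k⁻¹ * v * k) * k⁻¹ = v by group]; assumption)) with e' | e'
          · exact hne' (e' ▸ Commute.one_left _)
          · exact hne' (e' ▸ (Commute.symm (c.mem_C.1 hw)))
      have hwA : k⁻¹ * w * k ∉ c.A := fun hm => by
        rcases c.eq_t hm (by
            rw [sq]; exact sq_of_orderOf_two (by
              rw [← orderOf_conj' k, show k * (k⁻¹ * w * k) * k⁻¹ = w by group]; assumption)) with e' | e'
        · exact hne' (e' ▸ Commute.one_right _)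
        · exact hne' (e' ▸ c.mem_C.1 hv)
      have hm := c.mul_mem_A hv hvA hw hwA
      refine hyC (c.centralizer_le hm (fun e => hne' ?_)
        (mem_centralizer_singleton_iff.2 (hyv.mul_right hyw)))
      rw [eq_inv_of_mul_eq_one_left e]
      exact (Commute.refl _).inv_left
  · by_cases hf : c.Fixed
    · exact absurd ((c.small_centralizer hf hu hcj).2 v w huv huw) hne
    · exact absurd (hcl hf u hu) hcj

/-- All involutions are conjugate and the outer elements of `C(t)` are involutions. -/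
theorem structure_eq : (∀ u, orderOf u = 2 → ∃ h, h * c.t * h⁻¹ = u) ∧ c.Fixed ∧
    ∀ x : c.A, c.phi x = 1 := by
  classical
  let : Fintype G := Fintype.ofFinite G
  have hs := c.setup
  have ha := hs.a_two
  obtain ⟨n, hn⟩ := hs.bq_eq
  have hbq : 0 < b * q := by
    have := hs.b_two
    have := hs.q_five
    positivity
  set I := ({v | orderOf v = 2} : Finset G) with hI
  have hmI : ∀ v : G, v ∈ I ↔ orderOf v = 2 := fun v => by simp [hI]
  set I₁ := I.filter fun v => ∃ h, h * c.t * h⁻¹ = v with hI₁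
  have hc1 : I₁.card = b * q := by
    have := card_conj_class c.t I₁ fun v => by
      simp only [hI₁, Finset.mem_filter, hmI]
      exact ⟨fun e => e.2, fun ⟨h, e⟩ => ⟨by rw [← e, orderOf_conj', c.ht], h, e⟩⟩
    rw [c.card_C, hs.card_eq] at this
    exact Nat.eq_of_mul_eq_mul_right (by omega : 0 < 2 * a) (by rw [this]; ring)
  have hw1 : ∀ v ∈ I₁, wt v = wt c.t := fun v hv => by
    obtain ⟨h, e⟩ := (Finset.mem_filter.1 hv).2
    rw [← e, wt_conj]
  have oneclass : (∀ u, orderOf u = 2 → ∃ h, h * c.t * h⁻¹ = u) →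
      (c.Fixed ∨ ∀ u ∈ c.C, ∀ v ∈ c.C, Commute u v) →
      ∃ m, 1 + a * n = wt c.t + 2 * a * m := by
    intro hall hor
    obtain ⟨m, hm⟩ := c.count_eq (fun u u' v w => c.uniq hor (fun _ => hall) u u' v w)
    have he : I₁ = I := Finset.filter_true_of_mem fun v hv => hall v ((hmI v).1 hv)
    rw [he] at hc1 hw1
    rw [Finset.sum_congr rfl hw1, Finset.sum_const, smul_eq_mul, hc1, hs.card_eq] at hm
    refine ⟨m, ?_⟩
    rw [← hn]
    exact Nat.eq_of_mul_eq_mul_left hbq (by rw [hm]; ring)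
  rcases c.fix_or with hf | ⟨h4, hab, ha2⟩
  swap
  · exfalso
    obtain ⟨m, hm⟩ := oneclass (fun u hu => c.one_class_small h4 hu) (Or.inr hab)
    rw [c.wt_abelian hab] at hm
    have h1 : a ∣ 2 * a * m + 2 := ⟨n, by omega⟩
    exact absurd (Nat.le_of_dvd two_pos
      ((Nat.dvd_add_right (Dvd.dvd.mul_right (dvd_mul_left a 2) m)).1 h1)) (by omega)
  have hf' : c.Fixed := hf
  have hwt := c.wt_fixed hf'
  obtain ⟨hridx, hrcard⟩ := c.card_range_psi hf'
  have hrle : c.psi.range ≤ c.phi.ker := by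
    rintro _ ⟨x, rfl⟩
    exact c.range_psi_le x
  have hclass : ∀ u, orderOf u = 2 → (∃ h, h * c.t * h⁻¹ = u) ∨
      ∃ h, ∃ x : c.A, h * (c.s * x) * h⁻¹ = u ∧ c.phi x = 1 ∧ x ∉ c.psi.range := by
    intro u hu
    obtain ⟨h, hh⟩ := c.exists_conj_mem hu
    have hC := c.S_le hh
    by_cases e : h * u * h⁻¹ = c.t
    · exact Or.inl ⟨h⁻¹, by rw [← e]; group⟩
    obtain ⟨x, hx, hphi⟩ := c.invol_form hC (by rw [orderOf_conj', hu]) e
    have hue : h⁻¹ * (c.s * (x : G)) * h⁻¹⁻¹ = u := by rw [← hx]; group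
    by_cases hxr : x ∈ c.psi.range
    · obtain ⟨z, hz⟩ := hxr
      refine Or.inl ⟨h⁻¹ * z * c.g, ?_⟩
      rw [← hue, ← hz, ← c.conj_s]
      simp only [s]
      group
    · exact Or.inr ⟨h⁻¹, x, hue, hphi, hxr⟩
  rcases c.card_ker_phi hf' with hk | hk
  swap
  · exfalso
    have heq : c.psi.range = c.phi.ker := Subgroup.eq_of_le_of_card_ge hrle (by omega)
    obtain ⟨m, hm⟩ := oneclass (fun u hu => (hclass u hu).resolve_right fun ⟨_, x, _, hx, hxr⟩ =>
      hxr (heq ▸ hx)) (Or.inl hf')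
    have h2 : 2 ∣ Nat.card c.phi.ker := by
      have hmem : (⟨c.t, c.tA⟩ : c.A) ∈ c.phi.ker := c.phi_t
      have := Subgroup.orderOf_dvd_natCard c.phi.ker hmem
      rwa [← Subgroup.orderOf_coe, show orderOf c.t = 2 from c.ht] at this
    obtain ⟨i, hi⟩ := h2
    rw [hi] at hk hwt
    subst hk
    have hipos : 0 < 2 * i := by omega
    have : 2 * i * (2 * n + 1) = 2 * i * (2 * i + 4 * m) := by nlinarith
    have := Nat.eq_of_mul_eq_mul_left hipos this
    omega
  have hphi : ∀ x : c.A, c.phi x = 1 := fun x => by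
    have : c.phi.ker = ⊤ := Subgroup.eq_top_of_card_eq _ (by rw [hk, c.A_card])
    exact MonoidHom.mem_ker.1 (this ▸ Subgroup.mem_top x)
  refine ⟨?_, hf', hphi⟩
  by_contra hnot
  push Not at hnot
  obtain ⟨u₀, hu₀, hne₀⟩ := hnot
  have h4 : 4 ∣ a := by
    by_contra h4
    obtain ⟨h, e⟩ := c.one_class_small h4 hu₀
    exact hne₀ h e
  obtain ⟨i, rfl⟩ := h4
  rw [hk] at hwt
  set I₂ := I.filter fun v => ¬ ∃ h, h * c.t * h⁻¹ = v with hI₂
  have hconj : ∀ v, v ∈ I₂ ↔ ∃ h, h * u₀ * h⁻¹ = v := by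
    intro v
    simp only [hI₂, Finset.mem_filter, hmI]
    constructor
    · rintro ⟨hv, hvne⟩
      obtain ⟨h, x, hx, -, hxr⟩ := (hclass v hv).resolve_left hvne
      obtain ⟨h₀, x₀, hx₀, -, hx₀r⟩ := (hclass u₀ hu₀).resolve_left fun ⟨h, e⟩ => hne₀ h e
      obtain ⟨z, hz⟩ : x * x₀⁻¹ ∈ c.psi.range := by
        rw [Subgroup.mul_mem_iff_of_index_two hridx]
        exact iff_of_false hxr (by rwa [inv_mem_iff])
      refine ⟨h * z * h₀⁻¹, ?_⟩
      have e1 : (z : G) * (c.s * x₀) * (z : G)⁻¹ = c.s * x := by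
        have e2 : (z : G) * (c.s * x₀) * (z : G)⁻¹ = (z : G) * c.s * (z : G)⁻¹ * x₀ := by
          rw [← mul_assoc (z : G), mul_assoc ((z : G) * c.s) (x₀ : G),
            show (x₀ : G) * (z : G)⁻¹ = (z : G)⁻¹ * x₀ from c.A_comm x₀.2 (inv_mem z.2)]
          group
        rw [e2, c.conj_s, hz, mul_assoc]
        congr 1
        exact congrArg Subtype.val (inv_mul_cancel_right x x₀)
      rw [← hx, ← hx₀, ← e1]
      group
    · rintro ⟨h, rfl⟩
      refine ⟨by rw [orderOf_conj', hu₀], fun ⟨k, e⟩ => hne₀ (h⁻¹ * k) ?_⟩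
      calc h⁻¹ * k * c.t * (h⁻¹ * k)⁻¹ = h⁻¹ * (k * c.t * k⁻¹) * h := by group
        _ = u₀ := by rw [e]; group
  have hne' : ¬ ∃ h, h * c.t * h⁻¹ = u₀ := fun ⟨h, e⟩ => hne₀ h e
  have hc2 : I₂.card = 2 * i * (b * q) := by
    have := card_conj_class u₀ I₂ hconj
    rw [(c.small_centralizer hf' hu₀ hne').1, hs.card_eq] at this
    exact Nat.eq_of_mul_eq_mul_right (by omega : 0 < 4) (by rw [this]; ring)
  have hw2 : ∀ v ∈ I₂, wt v = 3 := by
    intro v hv
    simp only [hI₂, Finset.mem_filter, hmI] at hv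
    obtain ⟨hcard, hcomm⟩ := c.small_centralizer hf' hv.1 hv.2
    have h2 : prs v = ∅ := Finset.eq_empty_of_forall_notMem fun z hz => by
      simp only [mem_prs, mem_invs] at hz
      exact hz.2 (hcomm _ _ hz.1.1.2 hz.1.2.2)
    rw [wt, h2, Finset.card_empty, add_zero]
    have e : insert (1 : G) (invs v) = Finset.univ.filter (· ∈ centralizer ({v} : Set G)) := by
      ext w
      simp only [Finset.mem_insert, mem_invs, Finset.mem_filter, Finset.mem_univ, true_and,
        mem_centralizer_singleton_iff]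
      constructor
      · rintro (rfl | ⟨-, hw⟩)
        · simp
        · exact hw.symm.eq
      · intro hw
        refine or_iff_not_imp_left.2 fun h1 => ⟨orderOf_eq_prime ?_ h1, Commute.symm hw⟩
        obtain ⟨h, x, hx, hpx, -⟩ := (hclass v hv.1).resolve_left hv.2
        have hw' : Commute (c.s * x) (h⁻¹ * w * h) :=
          (commute_conj_left h _ w).1 (hx ▸ Commute.symm hw)
        set y := c.s * (x : G) with hy
        have hyo : orderOf y = 2 := c.s_mul_invol x hpx
        have hyC : y ∈ c.C := mul_mem c.sC (c.A_le x.2)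
        have hyt : Commute y c.t := c.mem_C.1 hyC
        have hcm := hcomm w (h * c.t * h⁻¹) (Commute.symm hw)
          (hx ▸ (commute_conj_iff h y c.t).2 hyt)
        have hwC : h⁻¹ * w * h ∈ c.C :=
          c.mem_C.2 (((commute_conj_left h c.t w).1 hcm.symm).symm)
        have hsq : (h⁻¹ * w * h) ^ 2 = 1 := by
          rcases c.centralizer_outside hf' hyC (c.s_mul_notMem x.2) (sq_of_orderOf_two hyo) hwC hw'
            with e | e | e | e <;> rw [e]
          · simp
          · rw [sq, c.t_sq]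
          · rw [sq, sq_of_orderOf_two hyo]
          · rw [hyt.mul_pow, sq, sq, c.t_sq, sq_of_orderOf_two hyo, one_mul]
        have : (h⁻¹ * w * h) ^ 2 = h⁻¹ * w ^ 2 * h := by rw [sq, sq]; group
        rw [this] at hsq
        calc w ^ 2 = h * (h⁻¹ * w ^ 2 * h) * h⁻¹ := by group
          _ = 1 := by rw [hsq]; group
    have := congrArg Finset.card e
    rw [Finset.card_insert_of_notMem (fun h1 => ne_one_of_orderOf_two (mem_invs.1 h1).1 rfl),
      ← Fintype.card_subtype, ← Nat.card_eq_fintype_card] at this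
    omega
  obtain ⟨m, hm⟩ := c.count_eq (fun u u' v w => c.uniq (Or.inl hf') (fun h => absurd hf' h) u u' v w)
  have hsplit : I₁.card + I₂.card = I.card := Finset.card_filter_add_card_filter_not _
  rw [← hI, ← Finset.sum_filter_add_sum_filter_not I (fun v => ∃ h, h * c.t * h⁻¹ = v),
    Finset.sum_congr rfl hw1, Finset.sum_congr rfl hw2, Finset.sum_const, Finset.sum_const,
    smul_eq_mul, smul_eq_mul, ← hsplit, hc1, hc2, hs.card_eq] at hm
  have h1 : (1 + 4 * i * n) * (1 + 2 * i) * (1 + 2 * i) = wt c.t + 6 * i + 8 * i * m := by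
    rw [← hn]
    refine Nat.eq_of_mul_eq_mul_left hbq ?_
    linarith
  have hipos : 0 < 2 * i := by omega
  have h2 : 2 * i * (2 * (n * (1 + 4 * i + 4 * i * i)) + 2 + 2 * i + 2) =
      2 * i * (8 * i + 3 + 4 * m) := by nlinarith
  have := Nat.eq_of_mul_eq_mul_left hipos h2
  omega

/-- Outer elements of `C(t)` invert `A`. -/
lemma inverts (x : c.A) : c.s * (x : G) * c.s = (x : G)⁻¹ :=
  eq_inv_of_mul_eq_one_left (c.structure_eq.2.2 x)

lemma one_class {u : G} (hu : orderOf u = 2) : ∃ h, h * c.t * h⁻¹ = u := c.structure_eq.1 u hu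

lemma fixed : c.Fixed := c.structure_eq.2.1

end Fus

end Cfsg.Agent.H79.PSLSpec
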