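import Cfsg.Agent.H79.PSLSpec.Setup

/-!
# The involution in the cyclic subgroup of order `a`
-/

set_option autoImplicit false

namespace Cfsg.Agent.H79.PSLSpec

open Subgroup

/-- An involution `t`, the cyclic subgroup `A` of order `a` containing it, and a Sylow 2-subgroup
centralising it. -/
structure Core (G : Type*) [Group G] [Finite G] (a b q p : ℕ) where
  setup : Setup G a b q p
  t : G
  A : Subgroup G
  S : Sylow 2 G
  ht : orderOf t = 2
  tA : t ∈ A
  A_cyc : IsCyclic A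
  A_card : Nat.card A = a
  card_C : Nat.card (Subgroup.centralizer ({t} : Set G)) = 2 * a
  S_le : (S : Subgroup G) ≤ Subgroup.centralizer ({t} : Set G)
  S_card : Nat.card (S : Subgroup G) = 2 ^ (a.factorization 2 + 1)

variable {G : Type*} [Group G] [Finite G] {a b q p : ℕ}

lemma cyclic_sq_eq {A : Subgroup G} (hA : IsCyclic A) {t x : G} (ht : orderOf t = 2) (htA : t ∈ A)
    (hx : x ∈ A) (hx2 : x ^ 2 = 1) : x = 1 ∨ x = t := by
  classical
  let : Fintype A := Fintype.ofFinite A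
  by_contra hc
  push Not at hc
  have h1 : t ≠ 1 := fun e => by rw [e, orderOf_one] at ht; omega
  have ht2 : t ^ 2 = 1 := ht ▸ pow_orderOf_eq_one t
  have hsub : ({1, ⟨t, htA⟩, ⟨x, hx⟩} : Finset A) ⊆ ({z | z ^ 2 = 1} : Finset A) := by
    intro z hz
    simp only [Finset.mem_insert, Finset.mem_singleton] at hz
    simp only [Finset.mem_filter, Finset.mem_univ, true_and]
    rcases hz with rfl | rfl | rfl <;> simp [Subtype.ext_iff, ht2, hx2]
  have h3 : ({1, ⟨t, htA⟩, ⟨x, hx⟩} : Finset A).card = 3 := by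
    rw [Finset.card_insert_of_notMem (by simp [Subtype.ext_iff, h1.symm, hc.1.symm]),
      Finset.card_insert_of_notMem (by simp [Subtype.ext_iff, hc.2.symm]), Finset.card_singleton]
  have := (Finset.card_le_card hsub).trans (IsCyclic.card_pow_eq_one_le (by norm_num : 0 < 2))
  omega

theorem Setup.exists_core (h : Setup G a b q p) : Nonempty (Core G a b q p) := by
  have := Fact.mk Nat.prime_two
  obtain ⟨x, hx⟩ := h.exA
  have ha := h.a_two
  set k := a.factorization 2 with hk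
  have hkd : 2 ^ k ∣ a := Nat.ordProj_dvd _ _
  have hk1 : 1 ≤ k := Nat.Prime.factorization_pos_of_dvd Nat.prime_two (by omega) h.a_even
  set t := x ^ (orderOf x / 2)
  set z := x ^ (orderOf x / 2 ^ k)
  have ht : orderOf t = 2 := orderOf_pow_orderOf_div (orderOf_pos x).ne' (hx ▸ h.a_even)
  have hz : orderOf z = 2 ^ k := orderOf_pow_orderOf_div (orderOf_pos x).ne' (hx ▸ hkd)
  have hA : IsCyclic (zpowers x) := (Subgroup.isCyclic_iff_exists_zpowers_eq_top _).2 ⟨x, rfl⟩
  have htA : t ∈ zpowers x := npow_mem_zpowers x _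
  have hzA : z ∈ zpowers x := npow_mem_zpowers x _
  have htZ : t ∈ zpowers z := by
    have h2 : orderOf (z ^ (2 ^ (k - 1))) = 2 := by
      have h2k : 2 ^ k / 2 = 2 ^ (k - 1) := Nat.pow_div hk1 two_pos
      have := orderOf_pow_orderOf_div (x := z) (n := 2) (orderOf_pos z).ne' (hz ▸ dvd_pow_self 2 (by omega))
      rwa [hz, h2k] at this
    rcases cyclic_sq_eq hA ht htA (pow_mem hzA _) (h2 ▸ pow_orderOf_eq_one (z ^ 2 ^ (k - 1))) with e | e
    · rw [e, orderOf_one] at h2; omega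
    · exact e ▸ npow_mem_zpowers z _
  have hZ2 : IsPGroup 2 (zpowers z) := IsPGroup.of_card (n := k) (by rw [Nat.card_zpowers, hz])
  obtain ⟨S, hS⟩ := hZ2.exists_le_sylow
  have hScard : Nat.card (S : Subgroup G) = 2 ^ (k + 1) := by
    rw [Sylow.card_eq_multiplicity, h.factorization_two]
  have hidx : ((zpowers z).subgroupOf (S : Subgroup G)).index = 2 := by
    have e := Subgroup.index_mul_card ((zpowers z).subgroupOf (S : Subgroup G))
    rw [Nat.card_congr (Subgroup.subgroupOfEquivOfLe hS).toEquiv, Nat.card_zpowers, hz, hScard,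
      pow_succ'] at e
    exact Nat.eq_of_mul_eq_mul_right (pow_pos two_pos k) e
  have hSle : (S : Subgroup G) ≤ centralizer ({t} : Set G) := by
    intro y hy
    have hn := Subgroup.normal_of_index_eq_two hidx
    have h1 := hn.conj_mem ⟨t, hS htZ⟩ htZ ⟨y, hy⟩
    change y * t * y⁻¹ ∈ zpowers z at h1
    have h2 : orderOf (y * t * y⁻¹) = 2 := by
      rw [← MulAut.conj_apply, MulEquiv.orderOf_eq, ht]
    rcases cyclic_sq_eq hA ht htA ((zpowers_le.2 hzA) h1) (h2 ▸ pow_orderOf_eq_one _) with e | e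
    · rw [e, orderOf_one] at h2; omega
    · rw [mem_centralizer_singleton_iff]
      calc y * t = y * t * y⁻¹ * y := by group
        _ = t * y := by rw [e]
  have hxle : zpowers x ≤ centralizer ({t} : Set G) := by
    rw [zpowers_le, mem_centralizer_singleton_iff]
    exact (Commute.self_pow x _).eq
  have hcard : Nat.card (centralizer ({t} : Set G)) = 2 * a := by
    have hdvd := h.card_centralizer_dvd (fun e => by rw [e, orderOf_one] at ht; omega)
      (ht ▸ h.a_even)
    have hxd : a ∣ Nat.card (centralizer ({t} : Set G)) := by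
      have := Subgroup.card_dvd_of_le hxle
      rwa [Nat.card_zpowers, hx] at this
    obtain ⟨m, hm⟩ := hxd
    rw [hm, mul_comm 2 a] at hdvd
    have hm2 := Nat.dvd_of_mul_dvd_mul_left (by omega : 0 < a) hdvd
    rcases (Nat.dvd_prime Nat.prime_two).1 hm2 with e | e
    · exfalso
      have := Subgroup.card_dvd_of_le hSle
      rw [hScard, hm, e, mul_one] at this
      exact Nat.pow_succ_factorization_not_dvd (by omega) Nat.prime_two this
    · rw [hm, e, mul_comm]
  exact ⟨⟨h, t, zpowers x, S, ht, htA, hA, by rw [Nat.card_zpowers, hx], hcard, hSle, hScard⟩⟩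

namespace Core

variable (c : Core G a b q p)

/-- The centraliser of the involution. -/
abbrev C : Subgroup G := Subgroup.centralizer ({c.t} : Set G)

lemma t_ne_one : c.t ≠ 1 := fun e => by
  have := c.ht
  rw [e, orderOf_one] at this
  omega

lemma t_sq : c.t * c.t = 1 := by rw [← sq, ← c.ht, pow_orderOf_eq_one]

lemma mem_C {y : G} : y ∈ c.C ↔ y * c.t = c.t * y := Subgroup.mem_centralizer_singleton_iff

lemma A_comm {x y : G} (hx : x ∈ c.A) (hy : y ∈ c.A) : x * y = y * x := by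
  have := c.A_cyc
  exact congrArg Subtype.val (IsMulCommutative.is_comm.comm (⟨x, hx⟩ : c.A) ⟨y, hy⟩)

lemma A_le : c.A ≤ c.C := fun _ hx => c.mem_C.2 (c.A_comm hx c.tA)

lemma A_dvd {x : G} (hx : x ∈ c.A) : orderOf x ∣ a := c.A_card ▸ Subgroup.orderOf_dvd_natCard _ hx

lemma eq_t {x : G} (hx : x ∈ c.A) (h2 : x ^ 2 = 1) : x = 1 ∨ x = c.t :=
  cyclic_sq_eq c.A_cyc c.ht c.tA hx h2

lemma dvd_of_commute_t {y : G} (hy : y ∈ c.C) : orderOf y ∣ a :=
  c.setup.sep c.t_ne_one (c.ht ▸ c.setup.a_even) (c.mem_C.1 hy).symm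

lemma index_A {H : Subgroup G} (hAH : c.A ≤ H) (hH : Nat.card H ∣ 2 * a) {y : G} (hy : y ∈ H)
    (hyA : y ∉ c.A) : (c.A.subgroupOf H).index = 2 := by
  have e := Subgroup.index_mul_card (c.A.subgroupOf H)
  rw [Nat.card_congr (Subgroup.subgroupOfEquivOfLe hAH).toEquiv, c.A_card] at e
  rw [← e] at hH
  have hd := Nat.dvd_of_mul_dvd_mul_right (by have := c.setup.a_two; omega) hH
  rcases (Nat.dvd_prime Nat.prime_two).1 hd with e1 | e1
  · exfalso
    rw [Subgroup.index_eq_one] at e1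
    exact hyA (show (⟨y, hy⟩ : H) ∈ c.A.subgroupOf H by rw [e1]; trivial)
  · exact e1

lemma index_C {y : G} (hy : y ∈ c.C) (hyA : y ∉ c.A) : (c.A.subgroupOf c.C).index = 2 :=
  c.index_A c.A_le (c.card_C ▸ dvd_rfl) hy hyA

lemma conj_mem {H : Subgroup G} (hAH : c.A ≤ H) (hH : Nat.card H ∣ 2 * a) {y w : G} (hy : y ∈ H)
    (hw : w ∈ c.A) : y * w * y⁻¹ ∈ c.A := by
  by_cases hyA : y ∈ c.A
  · exact mul_mem (mul_mem hyA hw) (inv_mem hyA)
  · exact (Subgroup.normal_of_index_eq_two (c.index_A hAH hH hy hyA)).conj_mem ⟨w, hAH hw⟩ hw ⟨y, hy⟩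

lemma conj_mem_A {y w : G} (hy : y ∈ c.C) (hw : w ∈ c.A) : y * w * y⁻¹ ∈ c.A :=
  c.conj_mem c.A_le (c.card_C ▸ dvd_rfl) hy hw

lemma mul_mem_A {y z : G} (hy : y ∈ c.C) (hyA : y ∉ c.A) (hz : z ∈ c.C) (hzA : z ∉ c.A) :
    y * z ∈ c.A :=
  (Subgroup.mul_mem_iff_of_index_two (c.index_C hy hyA) (a := (⟨y, hy⟩ : c.C)) (b := ⟨z, hz⟩)).2
    (iff_of_false hyA hzA)

lemma sq_mem_A {y : G} (hy : y ∈ c.C) : y * y ∈ c.A := by
  by_cases h : y ∈ c.A
  · exact mul_mem h h
  · exact c.mul_mem_A hy h hy h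

lemma mem_A_of_odd {x : G} (hx : x ∈ c.C) (ho : Odd (orderOf x)) : x ∈ c.A := by
  obtain ⟨m, hm⟩ := ho
  have : (x * x) ^ (m + 1) = x := by
    rw [← sq, ← pow_mul, show 2 * (m + 1) = orderOf x + 1 by omega, pow_succ, pow_orderOf_eq_one,
      one_mul]
  exact this ▸ pow_mem (c.sq_mem_A hx) _

lemma centralizer_le {x : G} (hx : x ∈ c.A) (hx1 : x ≠ 1) :
    Subgroup.centralizer ({x} : Set G) ≤ c.C := by
  intro y hy
  have hAH : c.A ≤ Subgroup.centralizer ({x} : Set G) := fun w hw =>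
    Subgroup.mem_centralizer_singleton_iff.2 (c.A_comm hw hx)
  have h1 := c.conj_mem hAH (c.setup.card_centralizer_dvd hx1 (c.A_dvd hx)) hy c.tA
  have h2 : (y * c.t * y⁻¹) ^ 2 = 1 := by
    rw [conj_pow, sq, c.t_sq]; group
  rcases c.eq_t h1 h2 with e | e
  · exact absurd (conj_eq_one_iff.1 e) c.t_ne_one
  · rw [c.mem_C]
    calc y * c.t = y * c.t * y⁻¹ * y := by group
      _ = c.t * y := by rw [e]

/-- Every involution has a conjugate in `S`. -/
lemma exists_conj_mem {u : G} (hu : orderOf u = 2) : ∃ g : G, g * u * g⁻¹ ∈ (c.S : Subgroup G) := by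
  have := Fact.mk Nat.prime_two
  have hU : IsPGroup 2 (Subgroup.zpowers u) := IsPGroup.of_card (n := 1) (by rw [Nat.card_zpowers, hu, pow_one])
  obtain ⟨T, hT⟩ := hU.exists_le_sylow
  obtain ⟨g, rfl⟩ := MulAction.exists_smul_eq G c.S T
  refine ⟨g⁻¹, ?_⟩
  have hm := hT (Subgroup.mem_zpowers u)
  rw [Sylow.coe_subgroup_smul, Subgroup.mem_pointwise_smul_iff_inv_smul_mem] at hm
  simpa [MulAut.conj, MulAut.smul_def] using hm

end Core

end Cfsg.Agent.H79.PSLSpec
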