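import Cfsg.Agent.H79.PSLSpec.Setup
import Cfsg.Agent.H86.RealClasses

/-!
# Pairs of involutions with product outside the `a`-part
-/

set_option autoImplicit false

namespace Cfsg.Agent.H79.PSLSpec

open Finset

variable {G : Type*} [Group G] [Finite G]

/-- A sum of centraliser orders over a conjugation invariant set is a multiple of the group order. -/
lemma dvd_sum_centralizer [Fintype G] [DecidableEq G] (X : Finset G)
    (hX : ∀ g x : G, x ∈ X → g * x * g⁻¹ ∈ X) :
    Nat.card G ∣ ∑ x ∈ X, Nat.card (Subgroup.centralizer ({x} : Set G)) := by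
  classical
  rw [← Finset.sum_fiberwise_of_maps_to (t := X.image ConjClasses.mk) (g := ConjClasses.mk)
    fun x hx => Finset.mem_image_of_mem _ hx]
  refine Finset.dvd_sum fun K hK => ?_
  obtain ⟨x, hx, rfl⟩ := Finset.mem_image.1 hK
  have hconst : ∀ y ∈ X.filter (fun y => ConjClasses.mk y = ConjClasses.mk x),
      Nat.card (Subgroup.centralizer ({y} : Set G)) = Nat.card (Subgroup.centralizer ({x} : Set G)) := by
    intro y hy
    have hc := (Finset.mem_filter.1 hy).2
    have h1 := H86.card_carrier_mul_card_centralizer y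
    have h2 := H86.card_carrier_mul_card_centralizer x
    rw [hc] at h1
    have hpos : 0 < Nat.card (ConjClasses.mk x).carrier := by
      rcases Nat.eq_zero_or_pos (Nat.card (ConjClasses.mk x).carrier) with e | e
      · rw [e, zero_mul] at h2
        exact absurd h2 Nat.card_pos.ne
      · exact e
    exact Nat.eq_of_mul_eq_mul_left hpos (h1.trans h2.symm)
  rw [Finset.sum_congr rfl hconst, Finset.sum_const, smul_eq_mul]
  have hcar : (X.filter fun y => ConjClasses.mk y = ConjClasses.mk x).card =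
      Nat.card (ConjClasses.mk x).carrier := by
    rw [Nat.card_eq_card_toFinset]
    congr 1
    ext y
    simp only [Finset.mem_filter, Set.mem_toFinset, ConjClasses.mem_carrier_iff_mk_eq]
    refine ⟨fun h => h.2, fun h => ⟨?_, h⟩⟩
    obtain ⟨g, hg⟩ := isConj_iff.1 (ConjClasses.mk_eq_mk_iff_isConj.1 h.symm)
    exact hg ▸ hX g x hx
  rw [hcar, H86.card_carrier_mul_card_centralizer]

variable {a b q p : ℕ}

/-- The pairs of involutions whose product is no `a`-element: their number is a multiple of `|G|`. -/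
lemma Setup.dvd_card_pairs (h : Setup G a b q p) [Fintype G] [DecidableEq G] :
    Nat.card G ∣ ((({v | orderOf v = 2} : Finset G) ×ˢ ({v | orderOf v = 2} : Finset G)).filter
      fun z => ¬ orderOf (z.1 * z.2) ∣ a).card := by
  classical
  set T := ((({v | orderOf v = 2} : Finset G) ×ˢ ({v | orderOf v = 2} : Finset G)).filter
      fun z => ¬ orderOf (z.1 * z.2) ∣ a) with hT
  have hmem : ∀ z : G × G, z ∈ T ↔
      orderOf z.1 = 2 ∧ orderOf z.2 = 2 ∧ ¬ orderOf (z.1 * z.2) ∣ a := fun z => by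
    simp [hT, and_assoc]
  have sq1 : ∀ v : G, orderOf v = 2 → v * v = 1 := fun v hv => by
    rw [← sq, ← hv, pow_orderOf_eq_one]
  rw [Finset.card_eq_sum_card_fiberwise (f := fun z => z.1 * z.2)
    (t := T.image fun z => z.1 * z.2) fun z hz => Finset.mem_image_of_mem _ hz]
  rw [Finset.sum_congr rfl (g := fun x => Nat.card (Subgroup.centralizer ({x} : Set G)))]
  · refine dvd_sum_centralizer _ fun g x hx => ?_
    obtain ⟨z, hz, rfl⟩ := Finset.mem_image.1 hx
    obtain ⟨h1, h2, h3⟩ := (hmem z).1 hz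
    have ho : ∀ v : G, orderOf (g * v * g⁻¹) = orderOf v := fun v => by
      rw [← MulAut.conj_apply, MulEquiv.orderOf_eq]
    refine Finset.mem_image.2 ⟨(g * z.1 * g⁻¹, g * z.2 * g⁻¹), (hmem _).2 ⟨?_, ?_, ?_⟩, ?_⟩
    · rw [ho, h1]
    · rw [ho, h2]
    · show ¬ orderOf (g * z.1 * g⁻¹ * (g * z.2 * g⁻¹)) ∣ a
      rw [show g * z.1 * g⁻¹ * (g * z.2 * g⁻¹) = g * (z.1 * z.2) * g⁻¹ by group, ho]
      exact h3
    · show g * z.1 * g⁻¹ * (g * z.2 * g⁻¹) = g * (z.1 * z.2) * g⁻¹
      group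
  intro x hx
  obtain ⟨z, hz, hzx⟩ := Finset.mem_image.1 hx
  obtain ⟨h1, h2, h3⟩ := (hmem z).1 hz
  obtain ⟨v₀, w₀⟩ := z
  simp only at h1 h2 h3 hzx
  rw [hzx] at h3
  have hvv := sq1 v₀ h1
  have hinv : v₀ * x * v₀ = x⁻¹ := by
    rw [← hzx, mul_inv_rev, inv_eq_of_mul_eq_one_right (sq1 _ h2),
      inv_eq_of_mul_eq_one_right hvv, ← mul_assoc v₀ v₀ w₀, hvv, one_mul]
  have hcmem : ∀ c : Subgroup.centralizer ({x} : Set G),
      v₀ * (c : G) * v₀ ∈ Subgroup.centralizer ({x} : Set G) := by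
    intro c
    have hc := (Subgroup.mem_centralizer_singleton_iff.1 c.2)
    rw [Subgroup.mem_centralizer_singleton_iff]
    have hc' : (c : G) * x⁻¹ = x⁻¹ * (c : G) := (Commute.inv_right hc).eq
    calc v₀ * c * v₀ * x = v₀ * c * (v₀ * x * v₀) * v₀ := by simp [mul_assoc, hvv]
      _ = v₀ * (x⁻¹ * c) * v₀ := by rw [hinv, mul_assoc v₀ (c : G) x⁻¹, hc']
      _ = v₀ * (v₀ * x * v₀ * c) * v₀ := by rw [hinv]
      _ = x * (v₀ * c * v₀) := by simp only [← mul_assoc, hvv, one_mul]
  let φ : Subgroup.centralizer ({x} : Set G) →* Subgroup.centralizer ({x} : Set G) :=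
    MonoidHom.mk' (fun c => ⟨v₀ * (c : G) * v₀, hcmem c⟩) fun c d => Subtype.ext (by
      show v₀ * ((c : G) * d) * v₀ = v₀ * c * v₀ * (v₀ * d * v₀)
      simp only [mul_assoc, ← mul_assoc v₀ v₀, hvv, one_mul])
  have hfpf : MonoidHom.FixedPointFree φ := by
    intro c hc
    by_contra hc1
    have hvc : v₀ * (c : G) * v₀ = c := congrArg Subtype.val hc
    have hcomm : Commute v₀ (c : G) := by
      show v₀ * (c : G) = (c : G) * v₀
      conv_rhs => rw [← hvc, mul_assoc, hvv, mul_one]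
    have h4 : orderOf (c : G) ∣ a := h.sep (fun e => by rw [e, orderOf_one] at h1; omega)
      (h1 ▸ h.a_even) hcomm
    exact h3 (h.sep (fun e => hc1 (Subtype.ext e)) h4 (Subgroup.mem_centralizer_singleton_iff.1 c.2))
  have hinvol : Function.Involutive φ := fun c => Subtype.ext (by
    show v₀ * (v₀ * (c : G) * v₀) * v₀ = c
    simp only [mul_assoc, hvv, mul_one, ← mul_assoc v₀ v₀, one_mul])
  have hinvc := hfpf.coe_eq_inv_of_involutive hinvol
  have hkey : ∀ c : G, c ∈ Subgroup.centralizer ({x} : Set G) → v₀ * c * v₀ = c⁻¹ := fun c hc =>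
    congrArg Subtype.val (congrFun hinvc ⟨c, hc⟩)
  have hxC : x ∈ Subgroup.centralizer ({x} : Set G) := Subgroup.mem_centralizer_singleton_iff.2 rfl
  have hv₀ : v₀ ∉ Subgroup.centralizer ({x} : Set G) := fun hm => h3 <|
    h.sep (fun e => by rw [e, orderOf_one] at h1; omega) (h1 ▸ h.a_even)
      (Subgroup.mem_centralizer_singleton_iff.1 hm)
  rw [← Fintype.card_coe, ← Nat.card_eq_fintype_card]
  refine (Nat.card_congr ?_).symm
  refine {
    toFun := fun c => ⟨(v₀ * (c : G), v₀ * ((c : G) * x)), ?_⟩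
    invFun := fun z => ⟨v₀ * z.1.1, ?_⟩
    left_inv := fun c => Subtype.ext (by
      show v₀ * (v₀ * (c : G)) = c
      rw [← mul_assoc, hvv, one_mul])
    right_inv := fun z => ?_ }
  · have hinvol2 : ∀ d : G, d ∈ Subgroup.centralizer ({x} : Set G) → orderOf (v₀ * d) = 2 := by
      intro d hd
      refine orderOf_eq_prime ?_ fun e => ?_
      · rw [sq, ← mul_assoc, hkey d hd, inv_mul_cancel]
      · exact hv₀ ((eq_inv_of_mul_eq_one_left e) ▸ inv_mem hd)
    have hcx : v₀ * (c : G) * (v₀ * ((c : G) * x)) = x := by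
      rw [← mul_assoc, hkey _ c.2, ← mul_assoc, inv_mul_cancel, one_mul]
    simp only [Finset.mem_filter, hmem]
    refine ⟨⟨hinvol2 _ c.2, hinvol2 _ (mul_mem c.2 hxC), ?_⟩, hcx⟩
    rw [hcx]; exact h3
  · obtain ⟨⟨v, w⟩, hz'⟩ := z
    simp only [Finset.mem_filter, hmem] at hz'
    obtain ⟨⟨hv, hw, -⟩, hvw⟩ := hz'
    rw [Subgroup.mem_centralizer_singleton_iff]
    show v₀ * v * x = x * (v₀ * v)
    have hv2 := sq1 v hv
    have hvi : v * x * v = x⁻¹ := by
      rw [← hvw, mul_inv_rev, inv_eq_of_mul_eq_one_right (sq1 _ hw),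
        inv_eq_of_mul_eq_one_right hv2, ← mul_assoc v v w, hv2, one_mul]
    have hvi' : v * x = x⁻¹ * v := by
      rw [← hvi, mul_assoc, hv2, mul_one]
    calc v₀ * v * x = v₀ * x⁻¹ * v := by rw [mul_assoc, hvi', mul_assoc]
      _ = v₀ * (v₀ * x * v₀) * v := by rw [hinv]
      _ = x * (v₀ * v) := by simp only [← mul_assoc, hvv, one_mul]
  · obtain ⟨⟨v, w⟩, hz'⟩ := z
    simp only [Finset.mem_filter, hmem] at hz'
    obtain ⟨⟨hv, -, -⟩, hvw⟩ := hz'
    refine Subtype.ext (Prod.ext ?_ ?_)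
    · show v₀ * (v₀ * v) = v
      rw [← mul_assoc, hvv, one_mul]
    · show v₀ * (v₀ * v * x) = w
      rw [← mul_assoc, ← mul_assoc, hvv, one_mul, ← hvw, ← mul_assoc, sq1 v hv, one_mul]

end Cfsg.Agent.H79.PSLSpec
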