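import Cfsg.Agent.H6.FieldEquiv
import Cfsg.Agent.S1230

/-!
# Recognition of `PSL₂(q)`, `q` even, by order and element orders
-/

set_option autoImplicit false

namespace Cfsg.Agent.H79.PSLSpec

open Subgroup
open scoped commutatorElement

/-- `G` has the order and element orders of `PSL₂(q)` with `q = m + 1 = 2 ^ n`. -/
structure SetupTwo (G : Type*) [Group G] [Finite G] (m n : ℕ) : Prop where
  two_le : 2 ≤ n
  q_eq : m + 1 = 2 ^ n
  card_eq : Nat.card G = 2 ^ n * (m * (m + 2))
  spec : ∀ g : G, orderOf g ∣ 2 ∨ orderOf g ∣ m ∨ orderOf g ∣ m + 2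
  exA : ∃ x : G, orderOf x = m
  exB : ∃ x : G, orderOf x = m + 2

namespace SetupTwo

variable {G : Type*} [Group G] [Finite G] {m n : ℕ} (h : SetupTwo G m n)
include h

lemma m_ge : 3 ≤ m := by
  have h2 : 2 ^ 2 ≤ 2 ^ n := Nat.pow_le_pow_right two_pos h.two_le
  have := h.q_eq
  omega

lemma two_not_dvd_m : ¬ 2 ∣ m := fun hd => by
  have h2 : 2 ∣ 2 ^ n := dvd_pow_self 2 (by have := h.two_le; omega)
  have := h.q_eq
  omega

lemma two_not_dvd_prod : ¬ 2 ∣ m * (m + 2) := fun hd => by
  rcases (Nat.Prime.dvd_mul Nat.prime_two).1 hd with hd | hd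
  · exact h.two_not_dvd_m hd
  · exact h.two_not_dvd_m ((Nat.dvd_add_left dvd_rfl).1 hd)

lemma coprime_m : Nat.Coprime m (m + 2) := by
  rw [Nat.coprime_self_add_right, Nat.coprime_two_right, Nat.odd_iff, ← Nat.two_dvd_ne_zero]
  exact h.two_not_dvd_m

/-- Centralisers of involutions are elementary abelian. -/
lemma centralizer_sq {t c : G} (ht : orderOf t = 2) (hc : Commute t c) : c ^ 2 = 1 := by
  rw [← orderOf_dvd_iff_pow_eq_one]
  have key : ∀ r : ℕ, r.Prime → r ∣ orderOf c → r = 2 := by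
    intro r hr hrc
    by_contra hne
    set c' := c ^ (orderOf c / r)
    have hc' : orderOf c' = r := orderOf_pow_orderOf_div (orderOf_pos c).ne' hrc
    have ho : orderOf (t * c') = 2 * r := by
      rw [Commute.orderOf_mul_eq_mul_orderOf_of_coprime (hc.pow_right _)
        (by rw [ht, hc']; exact (Nat.coprime_primes Nat.prime_two hr).2 (Ne.symm hne)), ht, hc']
    have h2 : 2 ∣ orderOf (t * c') := ho ▸ dvd_mul_right 2 r
    rcases h.spec (t * c') with hs | hs | hs
    · rw [ho] at hs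
      have := Nat.le_of_dvd two_pos hs
      have := hr.two_le
      omega
    · exact h.two_not_dvd_m (h2.trans hs)
    · exact h.two_not_dvd_m ((Nat.dvd_add_left dvd_rfl).1 (h2.trans hs))
  rcases h.spec c with hs | hs | hs
  · exact hs
  all_goals
    by_cases e : orderOf c = 1
    · rw [e]; exact one_dvd 2
    · exfalso
      have hr := key _ (Nat.minFac_prime e) (Nat.minFac_dvd _)
      have h2 : 2 ∣ orderOf c := hr ▸ Nat.minFac_dvd _
      first
        | exact h.two_not_dvd_m (h2.trans hs)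
        | exact h.two_not_dvd_m ((Nat.dvd_add_left dvd_rfl).1 (h2.trans hs))

lemma sylow_card (T : Sylow 2 G) : Nat.card (T : Subgroup G) = 2 ^ n := by
  have := Fact.mk Nat.prime_two
  have hm := h.m_ge
  rw [Sylow.card_eq_multiplicity, h.card_eq, Nat.factorization_mul (by positivity) (by positivity),
    Nat.Prime.factorization_pow Nat.prime_two]
  simp [Nat.factorization_eq_zero_of_not_dvd h.two_not_dvd_prod]

lemma not_cyclic (T : Sylow 2 G) : ¬ IsCyclic (T : Subgroup G) := by
  intro hc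
  obtain ⟨x, hx⟩ := IsCyclic.exists_ofOrder_eq_natCard (α := (T : Subgroup G))
  rw [h.sylow_card T, ← Subgroup.orderOf_coe] at hx
  have h2 : 2 ∣ orderOf (x : G) := hx ▸ dvd_pow_self 2 (by have := h.two_le; omega)
  rcases h.spec (x : G) with hs | hs | hs
  · have := Nat.le_of_dvd two_pos hs
    have h4 : 2 ^ 2 ≤ 2 ^ n := Nat.pow_le_pow_right two_pos h.two_le
    omega
  · exact h.two_not_dvd_m (h2.trans hs)
  · exact h.two_not_dvd_m ((Nat.dvd_add_left dvd_rfl).1 (h2.trans hs))

lemma not_normal (T : Sylow 2 G) : ¬ (T : Subgroup G).Normal := by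
  classical
  intro hT
  have := Fact.mk Nat.prime_two
  have hm := h.m_ge
  set Q := G ⧸ (T : Subgroup G)
  have hQ : Nat.card Q = m * (m + 2) := by
    have e := Subgroup.card_eq_card_quotient_mul_card_subgroup (T : Subgroup G)
    rw [h.sylow_card T, h.card_eq, mul_comm] at e
    exact (Nat.eq_of_mul_eq_mul_right (pow_pos two_pos n) e).symm
  have hord : ∀ z : Q, orderOf z ∣ m ∨ orderOf z ∣ m + 2 := by
    intro z
    obtain ⟨g, rfl⟩ := QuotientGroup.mk'_surjective _ z
    have h1 := orderOf_map_dvd (QuotientGroup.mk' (T : Subgroup G)) g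
    rcases h.spec g with hs | hs | hs
    · left
      rcases (Nat.dvd_prime Nat.prime_two).1 (h1.trans hs) with e | e
      · rw [e]; exact one_dvd m
      · have h3 := orderOf_dvd_natCard (QuotientGroup.mk' (T : Subgroup G) g)
        rw [e, hQ] at h3
        exact absurd h3 h.two_not_dvd_prod
    · exact Or.inl (h1.trans hs)
    · exact Or.inr (h1.trans hs)
  have hex : ∀ (x : G), ¬ 2 ∣ orderOf x →
      orderOf (QuotientGroup.mk' (T : Subgroup G) x) = orderOf x := by
    intro x hx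
    refine Nat.dvd_antisymm (orderOf_map_dvd _ x) ?_
    set k := orderOf (QuotientGroup.mk' (T : Subgroup G) x)
    have h1 : x ^ k ∈ (T : Subgroup G) :=
      (QuotientGroup.eq_one_iff _).1 (by rw [QuotientGroup.mk_pow]; exact pow_orderOf_eq_one _)
    obtain ⟨i, hi⟩ := IsPGroup.iff_orderOf.1 T.2 ⟨x ^ k, h1⟩
    rw [Subgroup.orderOf_mk] at hi
    rcases Nat.eq_zero_or_pos i with rfl | hi0
    · rw [pow_zero] at hi
      exact orderOf_dvd_of_pow_eq_one (orderOf_eq_one_iff.1 hi)
    · refine absurd ?_ hx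
      exact ((dvd_pow_self 2 hi0.ne').trans hi.symm.dvd).trans (orderOf_pow_dvd k)
  obtain ⟨x₀, hx₀⟩ := h.exA
  obtain ⟨y₀, hy₀⟩ := h.exB
  obtain ⟨x, hx⟩ : ∃ x : Q, orderOf x = m :=
    ⟨_, (hex x₀ (hx₀ ▸ h.two_not_dvd_m)).trans hx₀⟩
  obtain ⟨y, hy⟩ : ∃ y : Q, orderOf y = m + 2 :=
    ⟨_, (hex y₀ (fun e => h.two_not_dvd_m ((Nat.dvd_add_left dvd_rfl).1 (hy₀ ▸ e)))).trans hy₀⟩
  have hnc : ∀ u v : Q, 1 < orderOf u → 1 < orderOf v → orderOf u ∣ m → orderOf v ∣ m + 2 →
      ¬ Commute u v := by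
    intro u v hu hv hum hvm huv
    have hcop : Nat.Coprime (orderOf u) (orderOf v) :=
      Nat.Coprime.coprime_dvd_left hum (Nat.Coprime.coprime_dvd_right hvm h.coprime_m)
    have ho := Commute.orderOf_mul_eq_mul_orderOf_of_coprime huv hcop
    rcases hord (u * v) with hs | hs <;> rw [ho] at hs
    · exact hv.ne' (Nat.eq_one_of_dvd_coprimes h.coprime_m ((dvd_mul_left _ _).trans hs) hvm)
    · exact hu.ne' (Nat.eq_one_of_dvd_coprimes h.coprime_m hum ((dvd_mul_right _ _).trans hs))
  have : IsZGroup Q := by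
    rw [isZGroup_iff]
    intro r hr P
    have := Fact.mk hr
    obtain ⟨z, hz⟩ : ∃ z : Q, orderOf z = r ^ (Nat.card Q).factorization r := by
      have hd : r ^ (Nat.card Q).factorization r ∣ Nat.card Q := Nat.ordProj_dvd _ _
      rw [hQ] at hd ⊢
      rcases Nat.eq_zero_or_pos ((m * (m + 2)).factorization r) with e | e
      · exact ⟨1, by rw [e, pow_zero, orderOf_one]⟩
      have hrd : r ∣ m * (m + 2) := (dvd_pow_self r e.ne').trans hd
      rcases hr.dvd_mul.1 hrd with hrm | hrm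
      · have hnd : ¬ r ∣ m + 2 := fun h2 => hr.ne_one (Nat.eq_one_of_dvd_coprimes h.coprime_m hrm h2)
        exact ⟨x ^ (orderOf x / r ^ (m * (m + 2)).factorization r), orderOf_pow_orderOf_div
          (orderOf_pos x).ne' (by rw [hx]; exact ((hr.coprime_iff_not_dvd.2 hnd).pow_left _).dvd_of_dvd_mul_right hd)⟩
      · have hnd : ¬ r ∣ m := fun h2 => hr.ne_one (Nat.eq_one_of_dvd_coprimes h.coprime_m h2 hrm)
        exact ⟨y ^ (orderOf y / r ^ (m * (m + 2)).factorization r), orderOf_pow_orderOf_div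
          (orderOf_pos y).ne' (by rw [hy]; exact ((hr.coprime_iff_not_dvd.2 hnd).pow_left _).dvd_of_dvd_mul_left hd)⟩
    let R : Sylow r Q := Sylow.ofCard (zpowers z) (by rw [Nat.card_zpowers, hz])
    have hRc : IsCyclic (R : Subgroup Q) := by
      simp only [R, Sylow.coe_ofCard]
      exact (Subgroup.isCyclic_iff_exists_zpowers_eq_top _).2 ⟨z, rfl⟩
    exact (Sylow.equiv R P).isCyclic.1 hRc
  have hx1 : 1 < orderOf x := by omega
  have hy1 : 1 < orderOf y := by omega
  have hne : commutator Q ≠ ⊥ := fun e => hnc x y hx1 hy1 hx.dvd hy.dvd <| by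
    have hm : ⁅x, y⁆ ∈ commutator Q := Subgroup.commutator_mem_commutator (mem_top x) (mem_top y)
    rw [e, Subgroup.mem_bot, commutatorElement_eq_one_iff_commute] at hm
    exact hm
  have := IsZGroup.isCyclic_commutator (G := Q)
  have hr := Nat.minFac_prime (fun e => hne (Subgroup.eq_bot_of_card_eq _ e))
  set r := (Nat.card (commutator Q)).minFac
  have := Fact.mk hr
  obtain ⟨z₁, hz₁⟩ := exists_prime_orderOf_dvd_card' (G := commutator Q) r (Nat.minFac_dvd _)
  set z : Q := (z₁ : Q)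
  have hz : orderOf z = r := by rw [Subgroup.orderOf_coe, hz₁]
  set R := zpowers z
  have hRn : R.Normal := by
    refine ⟨fun u hu g => ?_⟩
    obtain ⟨i, rfl⟩ := hu
    show g * z ^ i * g⁻¹ ∈ R
    rw [← conj_zpow]
    refine zpow_mem ?_ i
    let : Fintype (commutator Q) := Fintype.ofFinite _
    have hg : g * z * g⁻¹ ∈ commutator Q :=
      (Subgroup.Normal.conj_mem inferInstance _ z₁.2 g)
    have hpow : (⟨g * z * g⁻¹, hg⟩ : commutator Q) ^ r = 1 := Subtype.ext (by
      show (g * z * g⁻¹) ^ r = 1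
      rw [conj_pow, ← hz, pow_orderOf_eq_one]; group)
    have hle : zpowers z₁ ≤ zpowers z₁ := le_rfl
    by_contra hnot
    have hcard := IsCyclic.card_pow_eq_one_le (α := commutator Q) hr.pos
    classical
    have hsub : insert (⟨g * z * g⁻¹, hg⟩ : commutator Q)
        (Finset.univ.filter fun w => w ∈ zpowers z₁) ⊆ ({w | w ^ r = 1} : Finset (commutator Q)) := by
      intro w hw
      simp only [Finset.mem_insert, Finset.mem_filter, Finset.mem_univ, true_and] at hw ⊢
      rcases hw with rfl | ⟨j, rfl⟩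
      · exact hpow
      · show (z₁ ^ j) ^ r = 1
        rw [← zpow_natCast, ← zpow_mul, mul_comm, zpow_mul, zpow_natCast, ← hz₁, pow_orderOf_eq_one,
          one_zpow]
    have h2 := (Finset.card_le_card hsub).trans hcard
    rw [Finset.card_insert_of_notMem, ← Fintype.card_subtype, ← Nat.card_eq_fintype_card,
      Nat.card_zpowers, hz₁] at h2
    · omega
    · simp only [Finset.mem_filter, Finset.mem_univ, true_and]
      rintro ⟨j, hj⟩
      exact hnot ⟨j, congrArg Subtype.val hj⟩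
  have hAut : Nat.card (MulAut R) = r - 1 := by
    have : IsCyclic R := (Subgroup.isCyclic_iff_exists_zpowers_eq_top _).2 ⟨z, rfl⟩
    rw [IsCyclic.card_mulAut, Nat.card_zpowers, hz, Nat.totient_prime hr]
  have hinj : ∀ w : Q, (∀ i : ℕ, w ^ i ≠ 1 → ¬ Commute (w ^ i) z) → orderOf w ∣ r - 1 := by
    intro w hw
    rw [← hAut]
    refine (orderOf_dvd_of_pow_eq_one (?_ : w ^ orderOf (MulAut.conjNormal (H := R) w) = 1)).trans
      (orderOf_dvd_natCard _)
    by_contra hne1
    refine hw _ hne1 ?_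
    have h1 := pow_orderOf_eq_one (MulAut.conjNormal (H := R) w)
    rw [← map_pow] at h1
    have h2 := congrArg Subtype.val (DFunLike.congr_fun h1 ⟨z, mem_zpowers z⟩)
    rw [MulAut.conjNormal_apply, MulAut.one_apply] at h2
    exact mul_inv_eq_iff_eq_mul.1 h2
  have hrQ : r ∣ m * (m + 2) := by
    rw [← hQ, ← hz]; exact orderOf_dvd_natCard z
  have hr2 := hr.two_le
  rcases hr.dvd_mul.1 hrQ with hrm | hrm
  · have hd : m + 2 ∣ r - 1 := hy ▸ hinj y (fun i hi hc => hnc z (y ^ i) (by omega) (by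
      have : orderOf (y ^ i) ≠ 1 := fun e => hi (orderOf_eq_one_iff.1 e)
      have := orderOf_pos (y ^ i)
      omega) (hz ▸ hrm) ((orderOf_pow_dvd i).trans hy.dvd) hc.symm)
    have h1 := Nat.le_of_dvd (by omega) hd
    have h2 := Nat.le_of_dvd (by omega) hrm
    omega
  · have hd : m ∣ r - 1 := hx ▸ hinj x (fun i hi hc => hnc (x ^ i) z (by
      have : orderOf (x ^ i) ≠ 1 := fun e => hi (orderOf_eq_one_iff.1 e)
      have := orderOf_pos (x ^ i)
      omega) (by omega) ((orderOf_pow_dvd i).trans hx.dvd) (hz ▸ hrm) hc)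
    have h1 := Nat.le_of_dvd (by omega) hd
    have h2 := Nat.le_of_dvd (by omega) hrm
    have hr_odd : r ≠ 2 := fun e => h.two_not_dvd_m ((Nat.dvd_add_left dvd_rfl).1 (e ▸ hrm))
    rcases (show r = m + 1 ∨ r = m + 2 by omega) with e | e
    · have h3 : m + 1 ∣ (m + 1) + 1 := by
        rw [show (m + 1) + 1 = m + 2 by omega, ← e]; exact hrm
      have := Nat.le_of_dvd one_pos ((Nat.dvd_add_right dvd_rfl).1 h3)
      omega
    · rw [e, show m + 2 - 1 = m + 1 by omega] at hd
      have := Nat.le_of_dvd one_pos ((Nat.dvd_add_right dvd_rfl).1 hd)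
      omega

theorem iso {F : Type*} [Field F] [Fintype F] (hF : Fintype.card F = 2 ^ n) :
    Nonempty (G ≃* Matrix.ProjectiveSpecialLinearGroup (Fin 2) F) := by
  have := Fact.mk Nat.prime_two
  obtain ⟨T⟩ : Nonempty (Sylow 2 G) := inferInstance
  obtain ⟨F', _, _, hF', ⟨e⟩⟩ := S1230.result T (h.not_cyclic T) (h.not_normal T) fun t ht => by
    have hsq : ∀ c ∈ centralizer ({t} : Set G), c ^ 2 = 1 := fun c hc =>
      h.centralizer_sq ht (mem_centralizer_singleton_iff.1 hc).symm
    refine ⟨⟨⟨fun u v => Subtype.ext ?_⟩⟩, hsq⟩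
    have h1 : ∀ w ∈ centralizer ({t} : Set G), w⁻¹ = w := fun w hw =>
      inv_eq_of_mul_eq_one_right (by rw [← sq]; exact hsq w hw)
    have h2 := h1 _ (mul_mem u.2 v.2)
    rw [mul_inv_rev, h1 _ u.2, h1 _ v.2] at h2
    exact h2.symm
  have heq : Fintype.card F' = Fintype.card F := by rw [hF', hF, h.sylow_card T]
  exact ⟨e.trans (H6.pslEquiv (FiniteField.ringEquivOfCardEq heq))⟩

end SetupTwo

end Cfsg.Agent.H79.PSLSpec
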