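import Cfsg.Agent.H79.PSLSpec.Fusion
import Cfsg.Agent.H79.InvCyclic.Main

/-!
# Fixed points of the outer half of the centraliser on `A`
-/

set_option autoImplicit false

namespace Cfsg.Agent.H79.PSLSpec

open Subgroup

/-- A core together with a second involution of `S` conjugate to `t`. -/
structure Fus (G : Type*) [Group G] [Finite G] (a b q p : ℕ) extends Core G a b q p where
  g : G
  gS : g * t * g⁻¹ ∈ (S : Subgroup G)
  g_ne : g * t * g⁻¹ ≠ t

variable {G : Type*} [Group G] [Finite G] {a b q p : ℕ}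

theorem Setup.exists_fus (h : Setup G a b q p) : Nonempty (Fus G a b q p) := by
  obtain ⟨c⟩ := h.exists_core
  obtain ⟨g, h1, h2⟩ := c.exists_fused
  exact ⟨{ c with g := g, gS := h1, g_ne := h2 }⟩

lemma orderOf_conj' (y w : G) : orderOf (y * w * y⁻¹) = orderOf w := by
  rw [← MulAut.conj_apply, MulEquiv.orderOf_eq]

lemma commute_conj_iff (y u v : G) : Commute (y * u * y⁻¹) (y * v * y⁻¹) ↔ Commute u v := by
  constructor
  · intro h
    show u * v = v * u
    calc u * v = y⁻¹ * ((y * u * y⁻¹) * (y * v * y⁻¹)) * y := by group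
      _ = y⁻¹ * ((y * v * y⁻¹) * (y * u * y⁻¹)) * y := by rw [h.eq]
      _ = v * u := by group
  · exact fun h => h.map (MulAut.conj y).toMonoidHom

lemma commute_conj_left (y u v : G) : Commute (y * u * y⁻¹) v ↔ Commute u (y⁻¹ * v * y) := by
  rw [← commute_conj_iff y u (y⁻¹ * v * y), show y * (y⁻¹ * v * y) * y⁻¹ = v by group]

lemma ne_one_of_orderOf_two {v : G} (hv : orderOf v = 2) : v ≠ 1 := fun e => by
  rw [e, orderOf_one] at hv; omega

lemma sq_of_orderOf_two {v : G} (hv : orderOf v = 2) : v * v = 1 := by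
  rw [← sq, ← hv, pow_orderOf_eq_one]

/-- A 2-element normalising a Sylow 2-subgroup lies in it. -/
lemma mem_sylow_of_normalizes (P : Sylow 2 G) {v : G} {i : ℕ} (hv : orderOf v = 2 ^ i)
    (hn : v ∈ normalizer ((P : Subgroup G) : Set G)) : v ∈ (P : Subgroup G) := by
  have := Fact.mk Nat.prime_two
  have h2 : IsPGroup 2 (zpowers v) := IsPGroup.of_card (n := i) (by rw [Nat.card_zpowers, hv])
  have := P.is_maximal' (IsPGroup.to_sup_of_normal_right' h2 P.2 (zpowers_le.2 hn)) le_sup_right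
  exact this ▸ mem_sup_left (mem_zpowers v)

namespace Fus

variable (c : Fus G a b q p)

/-- The second involution. -/
def s : G := c.g * c.t * c.g⁻¹

lemma hs : orderOf c.s = 2 := by rw [s, orderOf_conj', c.ht]

lemma sC : c.s ∈ c.C := c.S_le c.gS

lemma s_comm : Commute c.s c.t := c.mem_C.1 c.sC

lemma sA : c.s ∉ c.A := fun hm => by
  rcases c.eq_t hm (by rw [sq, sq_of_orderOf_two c.hs]) with e | e
  · exact ne_one_of_orderOf_two c.hs e
  · exact c.g_ne e

lemma tS : c.t ∈ (c.S : Subgroup G) := by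
  refine mem_sylow_of_normalizes c.S (i := 1) (by rw [c.ht, pow_one]) ?_
  exact centralizer_le_normalizer _ (mem_centralizer_iff.2 fun y hy => c.mem_C.1 (c.S_le hy))

lemma outside {w : G} (hw : w ∈ c.C) (hwA : w ∉ c.A) : c.s * w ∈ c.A :=
  c.mul_mem_A c.sC c.sA hw hwA

lemma split {w : G} (hw : w ∈ c.C) : w ∈ c.A ∨ ∃ x ∈ c.A, w = c.s * x := by
  by_cases hwA : w ∈ c.A
  · exact Or.inl hwA
  · exact Or.inr ⟨_, c.outside hw hwA, by rw [← mul_assoc, sq_of_orderOf_two c.hs, one_mul]⟩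

/-- An element of `A` commuting with an outer element is central in the centraliser of `t`. -/
lemma central_of_commute {y x : G} (hy : y ∈ c.C) (hyA : y ∉ c.A) (hx : x ∈ c.A)
    (hc : Commute y x) {w : G} (hw : w ∈ c.C) : Commute w x := by
  by_cases hwA : w ∈ c.A
  · exact c.A_comm hwA hx
  · have h1 : Commute (y * w) x := c.A_comm (c.mul_mem_A hy hyA hw hwA) hx
    have h2 := hc.inv_left.mul_left h1
    rwa [← mul_assoc, inv_mul_cancel, one_mul] at h2

lemma no_central_four {d : G} (hd : d ∈ c.A) (h4 : orderOf d = 4)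
    (hc : ∀ w ∈ c.C, Commute w d) : False := by
  have hd2 : orderOf (d * d) = 2 := by
    rw [← sq, orderOf_pow, h4]; rfl
  have hdt : d * d = c.t := (c.eq_t (mul_mem hd hd) (by rw [sq, sq_of_orderOf_two hd2])).resolve_left
    (ne_one_of_orderOf_two hd2)
  set d' := c.g * d * c.g⁻¹ with hd'
  have hdd : d' * d' = c.s := by
    simp only [d', s, ← hdt]
    group
  have hdC : c.g⁻¹ * d * c.g ∈ c.C := by
    rw [c.mem_C]
    show Commute (c.g⁻¹ * d * c.g) c.t
    rw [← commute_conj_iff c.g, show c.g * (c.g⁻¹ * d * c.g) * c.g⁻¹ = d by group]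
    exact (hc _ c.sC).symm
  have hcomm : Commute d' d := (commute_conj_left c.g d d).2 (hc _ hdC).symm
  have : d' ∈ c.C := by
    rw [c.mem_C]
    show Commute d' c.t
    rw [← hdt]
    exact hcomm.mul_right hcomm
  exact c.sA (hdd ▸ c.sq_mem_A this)

/-- Either the outer half of `C(t)` fixes only `t` in `A`, or `C(t)` is abelian with `4 ∤ a`. -/
theorem fix_or :
    (∀ y ∈ c.C, y ∉ c.A → ∀ x ∈ c.A, Commute y x → x ^ 2 = 1) ∨
    (¬ 4 ∣ a ∧ (∀ u ∈ c.C, ∀ v ∈ c.C, Commute u v) ∧ 2 < a) := by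
  by_cases hf : ∀ y ∈ c.C, y ∉ c.A → ∀ x ∈ c.A, Commute y x → x ^ 2 = 1
  · exact Or.inl hf
  right
  push Not at hf
  obtain ⟨y, hy, hyA, x, hx, hyx, hx2⟩ := hf
  have hcen : ∀ w ∈ c.C, Commute w x := fun w hw => c.central_of_commute hy hyA hx hyx hw
  have hn2 : ¬ orderOf x ∣ 2 := fun e => hx2 (orderOf_dvd_iff_pow_eq_one.1 e)
  have ha2 : 2 < a := by
    rcases lt_or_ge 2 a with h2 | h2
    · exact h2
    · exact absurd (dvd_trans (c.A_dvd hx) ((show a = 2 by have := c.setup.a_two; omega) ▸ dvd_rfl)) hn2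
  by_cases h4 : 4 ∣ orderOf x
  · exfalso
    exact c.no_central_four (pow_mem hx _) (orderOf_pow_orderOf_div (orderOf_pos x).ne' h4)
      fun w hw => (hcen w hw).pow_right _
  obtain ⟨r, hr, hr2, hrx⟩ : ∃ r, r.Prime ∧ r ≠ 2 ∧ r ∣ orderOf x := by
    by_contra hc
    push Not at hc
    have hpow : ∀ {d : ℕ}, d.Prime → d ∣ orderOf x → d = 2 := fun hd hdd => by
      by_contra hne
      exact hc _ hd hne hdd
    have he := Nat.eq_prime_pow_of_unique_prime_dvd (orderOf_pos x).ne' hpow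
    generalize (orderOf x).primeFactorsList.length = len at he
    rcases Nat.lt_or_ge len 2 with hl | hl
    · refine hn2 ?_
      rw [he]
      exact (pow_dvd_pow 2 (Nat.lt_succ_iff.1 hl)).trans (dvd_of_eq (pow_one 2))
    · refine h4 ?_
      rw [he]
      exact (dvd_of_eq (by norm_num : (4 : ℕ) = 2 ^ 2)).trans (pow_dvd_pow 2 hl)
  set x₁ := x ^ (orderOf x / r)
  have hx₁ : orderOf x₁ = r := orderOf_pow_orderOf_div (orderOf_pos x).ne' hrx
  have hx₁A : x₁ ∈ c.A := pow_mem hx _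
  have hx₁1 : x₁ ≠ 1 := fun e => by rw [e, orderOf_one] at hx₁; exact hr.ne_one hx₁.symm
  have hcen₁ : ∀ w ∈ c.C, Commute w x₁ := fun w hw => (hcen w hw).pow_right _
  set x₂ := c.g * x₁ * c.g⁻¹
  have hx₂C : x₂ ∈ c.C := by
    refine c.centralizer_le hx₁A hx₁1 (mem_centralizer_singleton_iff.2 ?_)
    show Commute x₂ x₁
    rw [commute_conj_left]
    refine (hcen₁ _ (c.mem_C.2 ?_)).symm
    show Commute (c.g⁻¹ * x₁ * c.g) c.t
    rw [← commute_conj_iff c.g, show c.g * (c.g⁻¹ * x₁ * c.g) * c.g⁻¹ = x₁ by group]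
    exact (hcen₁ _ c.sC).symm
  have hx₂o : orderOf x₂ = r := by rw [orderOf_conj', hx₁]
  have hx₂A : x₂ ∈ c.A := c.mem_A_of_odd hx₂C (hx₂o ▸ hr.odd_of_ne_two hr2)
  have := c.A_cyc
  obtain ⟨i, hi⟩ := InvCyclic.mem_zpowers_of_dvd (x := (⟨x₁, hx₁A⟩ : c.A)) (w := ⟨x₂, hx₂A⟩)
    (by rw [← Subgroup.orderOf_coe, ← Subgroup.orderOf_coe, hx₁, hx₂o])
  have hi' : x₂ ^ i = x₁ := congrArg Subtype.val hi
  have hle : Subgroup.centralizer ({c.s} : Set G) ≤ c.C := by
    intro w hw
    refine c.centralizer_le hx₁A hx₁1 (mem_centralizer_singleton_iff.2 ?_)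
    show Commute w x₁
    rw [← hi']
    refine Commute.zpow_right (Commute.symm ?_) i
    rw [commute_conj_left]
    refine (hcen₁ _ (c.mem_C.2 ?_)).symm
    show Commute (c.g⁻¹ * w * c.g) c.t
    rw [← commute_conj_iff c.g, show c.g * (c.g⁻¹ * w * c.g) * c.g⁻¹ = w by group]
    exact mem_centralizer_singleton_iff.1 hw
  have hcard : Nat.card (Subgroup.centralizer ({c.s} : Set G)) = Nat.card c.C := by
    refine Nat.card_congr ((MulAut.conj c.g⁻¹).toEquiv.subtypeEquiv fun w => ?_)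
    rw [mem_centralizer_singleton_iff, mem_centralizer_singleton_iff]
    show Commute w c.s ↔ Commute (c.g⁻¹ * w * c.g⁻¹⁻¹) c.t
    rw [inv_inv, ← commute_conj_iff c.g (c.g⁻¹ * w * c.g), show c.g * (c.g⁻¹ * w * c.g) * c.g⁻¹ = w by group]
    rfl
  have hCs : Subgroup.centralizer ({c.s} : Set G) = c.C := Subgroup.eq_of_le_of_card_ge hle hcard.ge
  have hsc : ∀ w ∈ c.C, Commute w c.s := fun w hw =>
    mem_centralizer_singleton_iff.1 (hCs.symm ▸ hw)
  have hab : ∀ u ∈ c.C, ∀ v ∈ c.C, Commute u v := by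
    have hkey : ∀ u ∈ c.A, ∀ v ∈ c.C, Commute u v := by
      intro u hu v hv
      rcases c.split hv with hvA | ⟨z, hz, rfl⟩
      · exact c.A_comm hu hvA
      · exact (hsc u (c.A_le hu)).mul_right (c.A_comm hu hz)
    intro u hu v hv
    rcases c.split hu with huA | ⟨z, hz, rfl⟩
    · exact hkey u huA v hv
    · exact (hsc v hv).symm.mul_left (hkey z hz v hv)
  refine ⟨fun h4a => ?_, hab, ha2⟩
  obtain ⟨z, hz⟩ := IsCyclic.exists_ofOrder_eq_natCard (α := c.A)
  rw [c.A_card] at hz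
  have h4z : orderOf ((z : G) ^ (orderOf (z : G) / 4)) = 4 :=
    orderOf_pow_orderOf_div (orderOf_pos _).ne' (by rw [Subgroup.orderOf_coe, hz]; exact h4a)
  exact c.no_central_four (pow_mem z.2 _) h4z fun w hw => (hab _ (pow_mem (c.A_le z.2) _) w hw).symm

/-- When `4 ∤ a` all involutions are conjugate. -/
theorem one_class_small (h4 : ¬ 4 ∣ a) {u : G} (hu : orderOf u = 2) :
    ∃ h : G, h * c.t * h⁻¹ = u := by
  classical
  have := Fact.mk Nat.prime_two
  let : Fintype G := Fintype.ofFinite G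
  have hk : a.factorization 2 = 1 := by
    have h0 := c.setup.a_two
    refine le_antisymm ?_ (Nat.Prime.factorization_pos_of_dvd Nat.prime_two (by omega) c.setup.a_even)
    by_contra hlt
    exact h4 ((pow_dvd_pow 2 (show 2 ≤ a.factorization 2 by omega)).trans (Nat.ordProj_dvd a 2))
  have hS4 : Nat.card (c.S : Subgroup G) = 2 ^ 2 := by rw [c.S_card, hk]
  have hcomm := IsPGroup.commutative_of_card_eq_prime_sq hS4
  have hts : c.t ≠ c.s := fun e => c.g_ne e.symm
  have h1t : (1 : G) ≠ c.t := (ne_one_of_orderOf_two c.ht).symm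
  have h1s : (1 : G) ≠ c.s := (ne_one_of_orderOf_two c.hs).symm
  have hts1 : c.t * c.s ≠ 1 := fun e => hts (by
    rw [eq_inv_of_mul_eq_one_left e, inv_eq_of_mul_eq_one_right (sq_of_orderOf_two c.hs)])
  have henum : ∀ w ∈ (c.S : Subgroup G), w = 1 ∨ w = c.t ∨ w = c.s ∨ w = c.t * c.s := by
    intro w hw
    by_contra hc
    push Not at hc
    obtain ⟨w1, w2, w3, w4⟩ := hc
    let F : Finset G := {1, c.t, c.s, c.t * c.s, w}
    have hF : F.card = 5 := by
      rw [Finset.card_insert_of_notMem, Finset.card_insert_of_notMem, Finset.card_insert_of_notMem,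
        Finset.card_insert_of_notMem, Finset.card_singleton]
      all_goals simp only [Finset.mem_insert, Finset.mem_singleton, not_or]
      · exact w4.symm
      · exact ⟨by simpa using c.t_ne_one, w3.symm⟩
      · exact ⟨hts, fun e => ne_one_of_orderOf_two c.hs (mul_eq_left.1 e.symm), w2.symm⟩
      · exact ⟨h1t, h1s, hts1.symm, w1.symm⟩
    have hsub : F ⊆ (Finset.univ.filter fun z : G => z ∈ (c.S : Subgroup G)) := by
      intro z hz
      simp only [F, Finset.mem_insert, Finset.mem_singleton] at hz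
      simp only [Finset.mem_filter, Finset.mem_univ, true_and]
      rcases hz with rfl | rfl | rfl | rfl | rfl
      exacts [one_mem _, c.tS, c.gS, mul_mem c.tS c.gS, hw]
    have := Finset.card_le_card hsub
    rw [hF, ← Fintype.card_subtype, ← Nat.card_eq_fintype_card] at this
    exact absurd (hS4 ▸ this) (by norm_num)
  have hcent : ∀ w ∈ (c.S : Subgroup G), w ∈ centralizer ((c.S : Subgroup G) : Set G) := fun w hw =>
    mem_centralizer_iff.2 fun y hy => congrArg Subtype.val (hcomm ⟨y, hy⟩ ⟨w, hw⟩)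
  obtain ⟨n, hn, hne⟩ := c.S.conj_eq_normalizer_conj_of_mem_centralizer c.t c.g⁻¹ (hcent _ c.tS)
    (by rw [inv_inv]; exact hcent _ c.gS)
  rw [inv_inv] at hne
  have hm : n⁻¹ ∈ normalizer ((c.S : Subgroup G) : Set G) := inv_mem hn
  set m := n⁻¹ with hmdef
  have hmt : m * c.t * m⁻¹ = c.s := by rw [hmdef, inv_inv]; exact hne.symm
  have hms : m * c.s * m⁻¹ = c.t * c.s := by
    have hmem : m * c.s * m⁻¹ ∈ (c.S : Subgroup G) :=
      (mem_normalizer_iff.1 hm c.s).1 c.gS
    rcases henum _ hmem with e | e | e | e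
    · exact absurd (conj_eq_one_iff.1 e) (ne_one_of_orderOf_two c.hs)
    · exfalso
      have hiter : ∀ j : ℕ, m ^ (2 * j + 1) * c.t * (m ^ (2 * j + 1))⁻¹ = c.s := by
        intro j
        induction j with
        | zero => simpa using hmt
        | succ j ih =>
          calc m ^ (2 * (j + 1) + 1) * c.t * (m ^ (2 * (j + 1) + 1))⁻¹
              = m * (m * (m ^ (2 * j + 1) * c.t * (m ^ (2 * j + 1))⁻¹) * m⁻¹) * m⁻¹ := by
                rw [show 2 * (j + 1) + 1 = 1 + (1 + (2 * j + 1)) by ring, pow_add, pow_add, pow_one]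
                group
            _ = c.s := by rw [ih, e, hmt]
      obtain ⟨i, o, ho, hmo⟩ := Nat.exists_eq_two_pow_mul_odd (orderOf_pos m).ne'
      obtain ⟨j, hj⟩ := ho
      have hord : orderOf (m ^ o) = 2 ^ i := by
        rw [orderOf_pow' m (by omega : o ≠ 0), hmo, Nat.gcd_mul_left_left,
          Nat.mul_div_cancel _ (by omega : 0 < o)]
      have hin := mem_sylow_of_normalizes c.S hord (pow_mem hm o)
      have hconj := hiter j
      rw [← hj, show m ^ o * c.t = c.t * m ^ o from c.mem_C.1 (c.S_le hin), mul_inv_cancel_right] at hconj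
      exact hts hconj
    · exfalso
      exact hts (mul_left_cancel (mul_right_cancel (hmt.trans e.symm)))
    · exact e
  obtain ⟨h, hh⟩ := c.exists_conj_mem hu
  have hu' : orderOf (h * u * h⁻¹) = 2 := by rw [orderOf_conj', hu]
  rcases henum _ hh with e | e | e | e
  · exact absurd e (ne_one_of_orderOf_two hu')
  · exact ⟨h⁻¹, by rw [← e]; group⟩
  · refine ⟨h⁻¹ * c.g, ?_⟩
    calc h⁻¹ * c.g * c.t * (h⁻¹ * c.g)⁻¹ = h⁻¹ * c.s * h := by simp only [s]; group
      _ = h⁻¹ * (h * u * h⁻¹) * h := by rw [e]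
      _ = u := by group
  · refine ⟨h⁻¹ * (m * m), ?_⟩
    calc h⁻¹ * (m * m) * c.t * (h⁻¹ * (m * m))⁻¹ = h⁻¹ * (m * (m * c.t * m⁻¹) * m⁻¹) * h := by group
      _ = h⁻¹ * (h * u * h⁻¹) * h := by rw [hmt, hms, e]
      _ = u := by group

end Fus

end Cfsg.Agent.H79.PSLSpec
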