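import Cfsg.Agent.H79.PSLSpec.Core
import Cfsg.Agent.S0215

/-!
# The involution is not isolated and `O(G) = 1`
-/

set_option autoImplicit false

namespace Cfsg.Agent.H79.PSLSpec

open Subgroup

variable {G : Type*} [Group G] [Finite G] {a b q p : ℕ}

/-- The automorphism induced on `R` by an element of its normaliser is trivial only on the
centraliser. -/
lemma commute_of_normalizerMonoidHom {R : Subgroup G} {y : normalizer (R : Set G)}
    (hy : R.normalizerMonoidHom y = 1) {r : G} (hr : r ∈ R) : Commute (y : G) r := by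
  have hk : y ∈ R.normalizerMonoidHom.ker := hy
  rw [Subgroup.normalizerMonoidHom_ker, Subgroup.mem_subgroupOf, Subgroup.mem_centralizer_iff] at hk
  exact (hk r hr).symm

/-- A Sylow subgroup of a normal subgroup: the index divides the order of its normaliser. -/
lemma index_dvd_normalizer {N : Subgroup G} [N.Normal] {r : ℕ} [Fact r.Prime] (R : Sylow r N) :
    N.index ∣ Nat.card (normalizer (((R : Subgroup N).map N.subtype : Subgroup G) : Set G)) := by
  set M := normalizer (((R : Subgroup N).map N.subtype : Subgroup G) : Set G)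
  refine Subgroup.card_dvd_of_surjective ((QuotientGroup.mk' N).comp M.subtype) ?_
  intro z
  obtain ⟨g, rfl⟩ := QuotientGroup.mk'_surjective N z
  have hg : g ∈ M ⊔ N := by rw [Sylow.normalizer_sup_eq_top R]; trivial
  rw [Subgroup.mem_sup_of_normal_right] at hg
  obtain ⟨m, hm, n, hn, rfl⟩ := hg
  refine ⟨⟨m, hm⟩, ?_⟩
  show QuotientGroup.mk' N m = QuotientGroup.mk' N (m * n)
  rw [map_mul, show QuotientGroup.mk' N n = 1 from (QuotientGroup.eq_one_iff n).2 hn, mul_one]

namespace Setup

variable (h : Setup G a b q p)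
include h

/-- A normal subgroup of odd order has order prime to `b`. -/
lemma no_b_prime {N : Subgroup G} [N.Normal] (hN : Odd (Nat.card N)) {s : ℕ} (hs : s.Prime)
    (hsb : s ∣ b) : ¬ s ∣ Nat.card N := by
  intro hsN
  have := Fact.mk hs
  have := Fact.mk Nat.prime_two
  have hs2 : s ≠ 2 := fun e => h.two_not_dvd_b (e ▸ hsb)
  have hsp : s ≠ p := fun e => h.p_not_dvd_b (e ▸ hsb)
  let R : Sylow s N := Classical.arbitrary _
  set R' : Subgroup G := (R : Subgroup N).map N.subtype with hR'
  have hR'p : IsPGroup s R' := R.2.map _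
  have hcard : Nat.card R' = Nat.card (R : Subgroup N) :=
    Nat.card_congr ((R : Subgroup N).equivMapOfInjective N.subtype N.subtype_injective).toEquiv.symm
  have hRs : s ∣ Nat.card R' := by
    rw [hcard, Sylow.card_eq_multiplicity]
    exact dvd_pow_self s (Nat.Prime.factorization_pos_of_dvd hs Nat.card_pos.ne' hsN).ne'
  have hcyc := h.isCyclic_of_isPGroup hs hs2 hsp hR'p
  have hAut : IsCyclic (MulAut R') := isCyclic_mulAut hs hs2 hR'p
  have hdvd : 2 ^ (a.factorization 2 + 1) ∣ Nat.card (normalizer (R' : Set G)) := by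
    refine (Nat.Coprime.dvd_of_dvd_mul_right (n := Nat.card N) ?_ ?_).trans (index_dvd_normalizer R)
    · exact ((Nat.coprime_two_left.2 hN).pow_left (a.factorization 2 + 1))
    · rw [Subgroup.index_mul_card, ← h.factorization_two]
      exact Nat.ordProj_dvd _ _
  obtain ⟨W, hW⟩ := Sylow.exists_subgroup_card_pow_prime 2 hdvd
  obtain ⟨z, hz⟩ := exists_prime_orderOf_dvd_card' s hRs
  set f := R'.normalizerMonoidHom.comp W.subtype
  have hinj : Function.Injective f := by
    refine (injective_iff_map_eq_one f).2 fun w hw => ?_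
    by_contra hw1
    have hc := commute_of_normalizerMonoidHom (y := (w : normalizer (R' : Set G))) hw z.2
    have hwG : orderOf (((w : normalizer (R' : Set G)) : G)) ∣ a := by
      rw [Subgroup.orderOf_coe, Subgroup.orderOf_coe]
      have h1 : orderOf w ∣ 2 ^ (a.factorization 2 + 1) := hW ▸ orderOf_dvd_natCard w
      obtain ⟨i, hi, he⟩ := (Nat.dvd_prime_pow Nat.prime_two).1 h1
      rw [he]
      rcases Nat.lt_or_eq_of_le hi with hlt | heq
      · exact (pow_dvd_pow 2 (Nat.lt_succ_iff.1 hlt)).trans (Nat.ordProj_dvd a 2)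
      · exfalso
        refine h.no_big_two (((w : normalizer (R' : Set G)) : G)) ?_
        rw [Subgroup.orderOf_coe, Subgroup.orderOf_coe, he, heq]
    have hne : ((w : normalizer (R' : Set G)) : G) ≠ 1 := fun e => hw1 (Subtype.ext (Subtype.ext e))
    have hz' := h.sep hne hwG hc
    rw [Subgroup.orderOf_coe, hz] at hz'
    exact h.not_dvd_a_b hs hz' hsb
  have hWc : IsCyclic W := isCyclic_of_injective f hinj
  obtain ⟨g, hg⟩ := IsCyclic.exists_generator (α := W)
  refine h.no_big_two (((g : normalizer (R' : Set G)) : G)) ?_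
  rw [Subgroup.orderOf_coe, Subgroup.orderOf_coe, orderOf_eq_card_of_forall_mem_zpowers hg, hW]

end Setup

namespace Core

variable (c : Core G a b q p)
include c

/-- The involution has another conjugate in `S`. -/
theorem exists_fused : ∃ g : G, g * c.t * g⁻¹ ∈ (c.S : Subgroup G) ∧ g * c.t * g⁻¹ ≠ c.t := by
  by_contra hcon
  push Not at hcon
  have htS : c.t ∈ (c.S : Subgroup G) := by
    obtain ⟨g, hg⟩ := c.exists_conj_mem c.ht
    exact hcon g hg ▸ hg
  obtain ⟨N, hN, hodd, hcomm⟩ := S0215.result c.S c.t c.ht htS hcon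
  have h := c.setup
  have hb := h.b_two
  have hs := Nat.minFac_prime (show b ≠ 1 by omega)
  set s := b.minFac
  have hsb : s ∣ b := Nat.minFac_dvd b
  have := Fact.mk hs
  have hsN := h.no_b_prime hodd hs hsb
  obtain ⟨x, hx⟩ := exists_prime_orderOf_dvd_card' s (h.dvd_card (Or.inr (Or.inl hsb)))
  have hsa : ¬ s ∣ a := fun ha => h.not_dvd_a_b hs ha hsb
  have ho : ∀ (y : G) (r : ℕ), r.Prime → orderOf y = r → ¬ r ∣ Nat.card N →
      orderOf (QuotientGroup.mk' N y) = r := by
    intro y r hr hy hrN
    have := Fact.mk hr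
    refine orderOf_eq_prime ?_ fun e => hrN ?_
    · rw [← map_pow, ← hy, pow_orderOf_eq_one, map_one]
    · exact hy ▸ Subgroup.orderOf_dvd_natCard N ((QuotientGroup.eq_one_iff y).1 e)
  have h2 : orderOf (QuotientGroup.mk' N c.t) = 2 := ho c.t 2 Nat.prime_two c.ht fun e => by
    obtain ⟨m, hm⟩ := hodd
    omega
  have hs' : orderOf (QuotientGroup.mk' N x) = s := ho x s hs hx hsN
  have hc : Commute (QuotientGroup.mk' N c.t) (QuotientGroup.mk' N x) := by
    have he : QuotientGroup.mk' N (c.t * x * c.t⁻¹ * x⁻¹) = 1 := (QuotientGroup.eq_one_iff _).2 (hcomm x)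
    rw [map_mul, map_mul, map_mul, map_inv, map_inv, mul_inv_eq_one, mul_inv_eq_iff_eq_mul] at he
    exact he
  refine h.excl_quotient Nat.prime_two hs h.a_even hsa (QuotientGroup.mk' N c.t * QuotientGroup.mk' N x) ?_
  rw [Commute.orderOf_mul_eq_mul_orderOf_of_coprime hc (by
    rw [h2, hs']; exact (Nat.coprime_primes Nat.prime_two hs).2 fun e => hsa (e ▸ h.a_even)), h2, hs']

/-- `G` has no nontrivial normal subgroup of odd order. -/
theorem odd_normal_eq_bot {N : Subgroup G} [hn : N.Normal] (hN : Odd (Nat.card N)) : N = ⊥ := by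
  have h := c.setup
  have := Fact.mk Nat.prime_two
  by_contra hne
  obtain ⟨g, hgS, hgne⟩ := c.exists_fused
  have htS : c.t ∈ (c.S : Subgroup G) := by
    by_contra ht
    obtain ⟨g', hg'⟩ := c.exists_conj_mem c.ht
    have h2 : IsPGroup 2 (zpowers c.t) := IsPGroup.of_card (n := 1) (by rw [Nat.card_zpowers, c.ht, pow_one])
    have hn' : zpowers c.t ≤ normalizer ((c.S : Subgroup G) : Set G) := by
      refine le_trans ?_ (centralizer_le_normalizer _)
      rw [zpowers_le, mem_centralizer_iff]
      exact fun y hy => (mem_centralizer_singleton_iff.1 (c.S_le hy))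
    have := c.S.is_maximal' (IsPGroup.to_sup_of_normal_right' h2 c.S.2 hn') le_sup_right
    exact ht (this ▸ mem_sup_left (mem_zpowers c.t))
  have hprimes : ∀ r : ℕ, r.Prime → r ∣ Nat.card N → r ∣ a := by
    intro r hr hrN
    have := Fact.mk hr
    let R : Sylow r N := Classical.arbitrary _
    set R' : Subgroup G := (R : Subgroup N).map N.subtype with hR'
    have hdvd : 2 ^ (a.factorization 2 + 1) ∣ Nat.card (normalizer (R' : Set G)) := by
      refine (Nat.Coprime.dvd_of_dvd_mul_right (n := Nat.card N) ?_ ?_).trans (index_dvd_normalizer R)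
      · exact ((Nat.coprime_two_left.2 hN).pow_left (a.factorization 2 + 1))
      · rw [Subgroup.index_mul_card, ← h.factorization_two]
        exact Nat.ordProj_dvd _ _
    obtain ⟨W, hW⟩ := Sylow.exists_subgroup_card_pow_prime 2 hdvd
    have hW' : Nat.card (W.map (normalizer (R' : Set G)).subtype) = 2 ^ (Nat.card G).factorization 2 := by
      rw [h.factorization_two, ← hW]
      exact Nat.card_congr (W.equivMapOfInjective _ (Subgroup.subtype_injective _)).toEquiv.symm
    obtain ⟨k, hk⟩ := MulAction.exists_smul_eq G c.S (Sylow.ofCard _ hW')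
    have hmem : ∀ y ∈ (c.S : Subgroup G), k * y * k⁻¹ ∈ normalizer (R' : Set G) := by
      intro y hy
      have h1 : k * y * k⁻¹ ∈ ((k • c.S : Sylow 2 G) : Subgroup G) := by
        rw [Sylow.coe_subgroup_smul]
        exact Subgroup.smul_mem_pointwise_smul y (MulAut.conj k) _ hy
      rw [hk, Sylow.coe_ofCard] at h1
      exact Subgroup.map_subtype_le W h1
    obtain ⟨z, hz⟩ := exists_prime_orderOf_dvd_card' (G := R') r (by
      rw [Nat.card_congr ((R : Subgroup N).equivMapOfInjective N.subtype N.subtype_injective).toEquiv.symm,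
        Sylow.card_eq_multiplicity]
      exact dvd_pow_self r (Nat.Prime.factorization_pos_of_dvd hr Nat.card_pos.ne' hrN).ne')
    set u := k * c.t * k⁻¹
    set v := k * (g * c.t * g⁻¹) * k⁻¹
    have ho : ∀ (y w : G), orderOf (y * w * y⁻¹) = orderOf w := fun y w => by
      rw [← MulAut.conj_apply, MulEquiv.orderOf_eq]
    have huv : Commute u v := by
      show u * v = v * u
      have := mem_centralizer_singleton_iff.1 (c.S_le hgS)
      calc u * v = k * (c.t * (g * c.t * g⁻¹)) * k⁻¹ := by simp only [u, v]; group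
        _ = k * ((g * c.t * g⁻¹) * c.t) * k⁻¹ := by rw [this]
        _ = v * u := by simp only [u, v]; group
    have hu : orderOf u = 2 := by rw [ho, c.ht]
    have hv : orderOf v = 2 := by rw [ho, ho, c.ht]
    have huv2 : orderOf (u * v) = 2 := by
      have hne' : u ≠ v := fun e => hgne (by
        simp only [u, v, mul_left_inj, mul_right_inj] at e
        exact e.symm)
      refine orderOf_eq_prime ?_ fun e => hne' ?_
      · rw [huv.mul_pow, ← hu, pow_orderOf_eq_one, hu, ← hv, pow_orderOf_eq_one, one_mul]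
      · rw [eq_inv_of_mul_eq_one_left e]
        exact inv_eq_of_mul_eq_one_right (by rw [← sq, ← hv, pow_orderOf_eq_one])
    have huR : u ∈ normalizer (R' : Set G) := hmem _ htS
    have hvR : v ∈ normalizer (R' : Set G) := hmem _ hgS
    have key : ∀ w : G, orderOf w = 2 → w ∈ normalizer (R' : Set G) →
        (∀ x ∈ R', w * x * w⁻¹ = x⁻¹) ∨ r ∣ a := by
      intro w hw hwR
      by_cases hf : MonoidHom.FixedPointFree ((R'.normalizerMonoidHom ⟨w, hwR⟩).toMonoidHom)
      · left
        have hinv : Function.Involutive ((R'.normalizerMonoidHom ⟨w, hwR⟩).toMonoidHom) := by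
          intro x
          show R'.normalizerMonoidHom ⟨w, hwR⟩ (R'.normalizerMonoidHom ⟨w, hwR⟩ x) = x
          have e : (⟨w, hwR⟩ : normalizer (R' : Set G)) * ⟨w, hwR⟩ = 1 := Subtype.ext (by
            show w * w = 1
            rw [← sq, ← hw, pow_orderOf_eq_one])
          rw [← MulAut.mul_apply, ← map_mul, e, map_one, MulAut.one_apply]
        intro x hx
        have := congrArg Subtype.val (congrFun (hf.coe_eq_inv_of_involutive hinv) ⟨x, hx⟩)
        exact this
      · right
        simp only [MonoidHom.FixedPointFree] at hf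
        push Not at hf
        obtain ⟨x, hx, hx1⟩ := hf
        have hxw : Commute w (x : G) := by
          have e := congrArg Subtype.val hx
          change w * (x : G) * w⁻¹ = x at e
          exact mul_inv_eq_iff_eq_mul.1 e
        have h1 := h.sep (fun e => by rw [e, orderOf_one] at hw; omega) (hw ▸ h.a_even) hxw
        refine dvd_trans ?_ h1
        rw [Subgroup.orderOf_coe]
        obtain ⟨i, hi⟩ := IsPGroup.iff_orderOf.1 (R.2.map N.subtype) x
        rw [hi]
        refine dvd_pow_self r fun i0 => hx1 ?_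
        rw [i0, pow_zero] at hi
        exact orderOf_eq_one_iff.1 hi
    rcases key u hu huR with hu' | ha
    swap
    · exact ha
    rcases key v hv hvR with hv' | ha
    swap
    · exact ha
    rcases key (u * v) huv2 (mul_mem huR hvR) with huv' | ha
    swap
    · exact ha
    exfalso
    have e1 := huv' z z.2
    rw [mul_inv_rev, show u * v * (z : G) * (v⁻¹ * u⁻¹) = u * (v * z * v⁻¹) * u⁻¹ by group,
      hv' z z.2, hu' _ (inv_mem z.2), inv_inv] at e1
    have hz2 : orderOf (z : G) ∣ 2 := by
      refine orderOf_dvd_of_pow_eq_one ?_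
      rw [sq]
      nth_rw 2 [e1]
      exact mul_inv_cancel _
    rw [Subgroup.orderOf_coe, hz] at hz2
    obtain ⟨m, hm⟩ := hN
    obtain ⟨d, hd⟩ := hrN
    rcases (Nat.dvd_prime Nat.prime_two).1 hz2 with e | e
    · exact hr.ne_one e
    · rw [e] at hd; omega
  have hN1 : Nat.card N ≠ 1 := fun e => hne (Subgroup.eq_bot_of_card_eq N e)
  have hr := Nat.minFac_prime hN1
  set r := (Nat.card N).minFac
  have hrN : r ∣ Nat.card N := Nat.minFac_dvd _
  have := Fact.mk hr
  have hra := hprimes r hr hrN
  have hr2 : r ≠ 2 := fun e => by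
    obtain ⟨d, hd⟩ := hrN
    obtain ⟨m, hm⟩ := hN
    rw [e] at hd; omega
  have hrp : r ≠ p := fun e => h.p_not_dvd_a (e ▸ hra)
  let R : Sylow r N := Classical.arbitrary _
  set R' : Subgroup G := (R : Subgroup N).map N.subtype with hR'
  have hR'p : IsPGroup r R' := R.2.map _
  have hcyc := h.isCyclic_of_isPGroup hr hr2 hrp hR'p
  have hAut : IsCyclic (MulAut R') := isCyclic_mulAut hr hr2 hR'p
  have hidx := index_dvd_normalizer R
  have hb := h.b_two
  have hs := Nat.minFac_prime (show b ≠ 1 by omega)
  set s := b.minFac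
  have hsb : s ∣ b := Nat.minFac_dvd b
  have hsa : ¬ s ∣ a := fun ha => h.not_dvd_a_b hs ha hsb
  have hget : ∀ l : ℕ, l.Prime → ¬ l ∣ a → l ∣ Nat.card G →
      ∃ y : normalizer (R' : Set G), orderOf y = l ∧ orderOf (R'.normalizerMonoidHom y) = l := by
    intro l hl hla hlG
    have := Fact.mk hl
    have h1 : l ∣ N.index := by
      rw [← Subgroup.index_mul_card N] at hlG
      exact (hl.dvd_mul.1 hlG).resolve_right fun e => hla (hprimes l hl e)
    obtain ⟨y, hy⟩ := exists_prime_orderOf_dvd_card' l (h1.trans hidx)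
    refine ⟨y, hy, orderOf_eq_prime ?_ fun e => ?_⟩
    · rw [← map_pow, ← hy, pow_orderOf_eq_one, map_one]
    · obtain ⟨z, hz⟩ := exists_prime_orderOf_dvd_card' (G := R') r (by
        rw [Nat.card_congr ((R : Subgroup N).equivMapOfInjective N.subtype N.subtype_injective).toEquiv.symm,
          Sylow.card_eq_multiplicity]
        exact dvd_pow_self r (Nat.Prime.factorization_pos_of_dvd hr Nat.card_pos.ne' hrN).ne')
      have h2 := h.sep (x := (z : G)) (y := (y : G)) (fun e' => by
        have := hz
        rw [← Subgroup.orderOf_coe, e', orderOf_one] at this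
        exact hr.ne_one this.symm)
        (by rw [Subgroup.orderOf_coe, hz]; exact hra) (commute_of_normalizerMonoidHom e z.2).symm
      rw [Subgroup.orderOf_coe, hy] at h2
      exact hla h2
  obtain ⟨y, hy, hy'⟩ := hget s hs hsa (h.dvd_card (Or.inr (Or.inl hsb)))
  obtain ⟨z, hz, hz'⟩ := hget p h.p_prime h.p_not_dvd_a (h.dvd_card (Or.inr (Or.inr h.p_dvd_q)))
  have hco : Commute (R'.normalizerMonoidHom y) (R'.normalizerMonoidHom z) :=
    IsMulCommutative.is_comm.comm _ _
  have hsp : s ≠ p := fun e => h.p_not_dvd_b (e ▸ hsb)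
  have hord : s * p ∣ orderOf ((y * z : normalizer (R' : Set G)) : G) := by
    rw [Subgroup.orderOf_coe]
    have h1 := orderOf_map_dvd R'.normalizerMonoidHom (y * z)
    rwa [map_mul, Commute.orderOf_mul_eq_mul_orderOf_of_coprime hco
      (by rw [hy', hz']; exact (Nat.coprime_primes hs h.p_prime).2 hsp), hy', hz'] at h1
  have h1 : s ∣ orderOf ((y * z : normalizer (R' : Set G)) : G) := (dvd_mul_right s p).trans hord
  have h2 : p ∣ orderOf ((y * z : normalizer (R' : Set G)) : G) := (dvd_mul_left p s).trans hord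
  rcases h.spec ((y * z : normalizer (R' : Set G)) : G) with hh | hh | hh
  · exact hsp ((Nat.prime_dvd_prime_iff_eq hs h.p_prime).1 (h1.trans hh))
  · exact hsa (h1.trans hh)
  · exact h.p_not_dvd_b (h2.trans hh)

end Core

end Cfsg.Agent.H79.PSLSpec
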