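import Cfsg.Agent.H79.PSLSpec.Simple
import Cfsg.Agent.H19.Cores
import Cfsg.Agent.H6.FieldEquiv
import Cfsg.Agent.H6.Four
import Cfsg.Agent.S0508

/-!
# Recognition of `PSL₂(q)`, `q` odd, by order and element orders
-/

set_option autoImplicit false

namespace Cfsg.Agent.H79.PSLSpec

open Subgroup

variable {G : Type*} [Group G] [Finite G] {a b q p : ℕ}

lemma Setup.four_card (h : Setup G a b q p) : 2 * (2 * a * b * q) = q * (q ^ 2 - 1) := by
  rcases h.arith with ⟨h1, h2⟩ | ⟨h1, h2⟩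
  · have e : q ^ 2 - 1 = 4 * a * b := by
      rw [h1, h2]
      have : (2 * a + 1) ^ 2 = 4 * a * (a + 1) + 1 := by ring
      omega
    rw [e]; ring
  · have e : q ^ 2 - 1 = 4 * a * b := by
      rw [show q = 2 * b + 1 by omega, ← h1]
      have : (2 * b + 1) ^ 2 = 4 * (b + 1) * b + 1 := by ring
      omega
    rw [e]; ring

namespace Fus

variable (c : Fus G a b q p)
include c

theorem exists_psl : ∃ (F : Type) (_ : Field F) (_ : Fintype F), Odd (Fintype.card F) ∧
    Nonempty (G ≃* Matrix.ProjectiveSpecialLinearGroup (Fin 2) F) := by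
  have := Fact.mk Nat.prime_two
  have := c.isSimpleGroup
  have := c.A_cyc
  obtain ⟨P, σ, hσA, hσ, hsP, hσP, htP, hPC, hPcard, hiso⟩ := c.exists_dihedral_sylow
  set k := a.factorization 2
  have ha := c.setup.a_two
  have hk1 : 1 ≤ k := Nat.Prime.factorization_pos_of_dvd Nat.prime_two (by omega) c.setup.a_even
  set O := (Cfsg.oddCore c.C).map c.C.subtype with hOdef
  have hOA : ∀ y ∈ O, y ∈ c.A ∧ (y = 1 ∨ y ^ 2 ≠ 1) := by
    rintro _ ⟨y, hy, rfl⟩
    have hodd : Odd (orderOf (y : G)) := by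
      rw [Subgroup.orderOf_coe, Nat.odd_iff, ← Nat.two_dvd_ne_zero]
      intro h
      have h1 := H19.pPrimeCore_coprime (G := c.C) 2
      rw [Nat.coprime_two_right, Nat.odd_iff, ← Nat.two_dvd_ne_zero] at h1
      exact h1 (h.trans (Subgroup.orderOf_dvd_natCard _ hy))
    refine ⟨c.mem_A_of_odd y.2 hodd, or_iff_not_imp_left.2 fun hne h2 => hne ?_⟩
    obtain ⟨j, hj⟩ := hodd
    rcases (Nat.dvd_prime Nat.prime_two).1 (orderOf_dvd_of_pow_eq_one h2) with e | e
    · exact orderOf_eq_one_iff.1 e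
    · have e' : orderOf (y : G) = 2 := e
      omega
  refine S0508.result P (2 ^ k) (Nat.one_lt_two_pow (by omega)) hiso c.t c.ht htP
    (fun y hy => c.mem_C.1 (hPC hy)) O hOdef ?_ ?_ ?_
  · intro hne
    obtain ⟨⟨y, hyO⟩, hy⟩ := O.ne_bot_iff_exists_ne_one.1 hne
    have hy1 : y ≠ 1 := fun e => hy (Subtype.ext e)
    have hy2 := (hOA y hyO).2.resolve_left hy1
    have e : (P : Subgroup G) ⊓ centralizer (O : Set G) = zpowers σ := by
      apply le_antisymm
      · rintro w ⟨hwP, hwO⟩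
        have hwA : w ∈ c.A := by
          by_contra hwA
          exact hy2 (c.fixed w (hPC hwP) hwA y (hOA y hyO).1
            (mem_centralizer_iff.1 hwO y hyO).symm)
        have hd : orderOf w ∣ orderOf σ := by
          rw [hσ]
          have h1 : orderOf w ∣ 2 ^ (k + 1) := by
            rw [pow_succ', ← hPcard]; exact Subgroup.orderOf_dvd_natCard _ hwP
          obtain ⟨i, hi, he⟩ := (Nat.dvd_prime_pow Nat.prime_two).1 h1
          rw [he]
          refine pow_dvd_pow 2 ?_
          exact (Nat.Prime.pow_dvd_iff_le_factorization Nat.prime_two (by omega)).1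
            (he ▸ c.A_dvd hwA)
        obtain ⟨i, hi⟩ := InvCyclic.mem_zpowers_of_dvd (x := (⟨w, hwA⟩ : c.A)) (w := ⟨σ, hσA⟩)
          (by rwa [← Subgroup.orderOf_coe, ← Subgroup.orderOf_coe])
        exact ⟨i, congrArg Subtype.val hi⟩
      · refine zpowers_le.2 ⟨hσP, mem_centralizer_iff.2 fun z hz => ?_⟩
        exact c.A_comm (hOA z hz).1 hσA
    rw [e]
    refine ⟨(Subgroup.isCyclic_iff_exists_zpowers_eq_top _).2 ⟨σ, rfl⟩, ?_⟩
    have h1 := Subgroup.index_mul_card ((zpowers σ).subgroupOf (P : Subgroup G))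
    rw [Nat.card_congr (Subgroup.subgroupOfEquivOfLe (zpowers_le.2 hσP)).toEquiv,
      Nat.card_zpowers, hσ, hPcard] at h1
    exact Nat.eq_of_mul_eq_mul_right (pow_pos two_pos k) h1
  · intro y hy hyO z hz
    refine c.s_inverts (hPC hy) (fun hyA => hyO ?_) (hOA z hz).1
    exact mem_centralizer_iff.2 fun z hz => c.A_comm (hOA z hz).1 hyA
  · intro Y hY hne g hg
    obtain ⟨⟨y, hy⟩, hy0⟩ := Y.ne_bot_iff_exists_ne_one.1 hne
    have hy1 : y ≠ 1 := fun e => hy0 (Subtype.ext e)
    have hy2 := (hOA y (hY hy)).2.resolve_left hy1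
    have hcomm : Commute (g * c.t * g⁻¹) y := by
      rw [commute_conj_left]
      have := (mem_normalizer_iff.1 (inv_mem hg) y).1 hy
      rw [inv_inv] at this
      exact c.A_comm c.tA (hOA _ (hY this)).1
    have hC := c.centralizer_le (hOA y (hY hy)).1 hy1 (mem_centralizer_singleton_iff.2 hcomm)
    have ho : orderOf (g * c.t * g⁻¹) = 2 := by rw [orderOf_conj', c.ht]
    by_cases hA : g * c.t * g⁻¹ ∈ c.A
    · rcases c.eq_t hA (by rw [sq, sq_of_orderOf_two ho]) with e | e
      · exact absurd e (ne_one_of_orderOf_two ho)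
      · exact c.mem_C.2 (mul_inv_eq_iff_eq_mul.1 e)
    · exact absurd (c.fixed _ hC hA y (hOA y (hY hy)).1 hcomm) hy2

end Fus

theorem Setup.iso (h : Setup G a b q p) {F : Type*} [Field F] [Fintype F]
    (hF : Fintype.card F = q) : Nonempty (G ≃* Matrix.ProjectiveSpecialLinearGroup (Fin 2) F) := by
  obtain ⟨c⟩ := h.exists_fus
  obtain ⟨F', _, _, hodd, ⟨e⟩⟩ := c.exists_psl
  have h2 : (2 : F') ≠ 0 := fun e2 => by
    have := CharP.ringChar_of_prime_eq_zero Nat.prime_two (R := F') (by exact_mod_cast e2)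
    have := FiniteField.even_card_iff_char_two.1 this
    rw [Nat.odd_iff] at hodd
    omega
  have hcard := H6.card_psl2_odd h2 (rfl : Fintype.card F' = _)
  rw [← Nat.card_congr e.toEquiv, h.card_eq, h.four_card] at hcard
  set q' := Fintype.card F'
  have hq' : 2 ≤ q' := Fintype.one_lt_card
  have hq := h.q_five
  have heq : q' = q := by
    rcases lt_trichotomy q' q with hlt | he | hgt
    · exfalso
      have h1 : q' ^ 2 < q ^ 2 := Nat.pow_lt_pow_left hlt (by omega)
      have h4 : 4 ≤ q' ^ 2 := le_trans (by norm_num) (Nat.pow_le_pow_left hq' 2)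
      have : q' * (q' ^ 2 - 1) < q * (q ^ 2 - 1) := Nat.mul_lt_mul'' hlt (by omega)
      omega
    · exact he
    · exfalso
      have h1 : q ^ 2 < q' ^ 2 := Nat.pow_lt_pow_left hgt (by omega)
      have h4 : 4 ≤ q ^ 2 := le_trans (by norm_num) (Nat.pow_le_pow_left (show 2 ≤ q by omega) 2)
      have : q * (q ^ 2 - 1) < q' * (q' ^ 2 - 1) := Nat.mul_lt_mul'' hgt (by omega)
      omega
  exact ⟨e.trans (H6.pslEquiv (FiniteField.ringEquivOfCardEq (heq.trans hF.symm)))⟩

end Cfsg.Agent.H79.PSLSpec
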