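import Cfsg.Agent.H79.PSLSpec.Fix
import Cfsg.Agent.H79.PSLSpec.Count

/-!
# Counting involution pairs through the common commuting involution
-/

set_option autoImplicit false

namespace Cfsg.Agent.H79.PSLSpec

open Subgroup

variable {G : Type*} [Group G]

/-- The involutions commuting with `u`. -/
noncomputable def invs [Fintype G] (u : G) : Finset G := by
  classical exact {w | orderOf w = 2 ∧ Commute u w}

/-- The non-commuting pairs of involutions centralising `u`. -/
noncomputable def prs [Fintype G] (u : G) : Finset (G × G) := by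
  classical exact (invs u ×ˢ invs u).filter fun z => ¬ Commute z.1 z.2

lemma mem_invs [Fintype G] {u w : G} : w ∈ invs u ↔ orderOf w = 2 ∧ Commute u w := by
  simp [invs]

lemma mem_prs [Fintype G] {u : G} {z : G × G} :
    z ∈ prs u ↔ (z.1 ∈ invs u ∧ z.2 ∈ invs u) ∧ ¬ Commute z.1 z.2 := by
  simp [prs]

/-- The contribution of one involution to the count. -/
noncomputable def wt [Fintype G] (u : G) : ℕ := (invs u).card + (prs u).card

lemma wt_conj [Fintype G] (h u : G) : wt (h * u * h⁻¹) = wt u := by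
  unfold wt
  congr 1
  · refine (Finset.card_equiv (MulAut.conj h).toEquiv fun w => ?_).symm
    simp only [mem_invs, MulEquiv.toEquiv_eq_coe, EquivLike.coe_coe, MulAut.conj_apply,
      orderOf_conj', commute_conj_iff]
  · refine (Finset.card_equiv ((MulAut.conj h).toEquiv.prodCongr (MulAut.conj h).toEquiv)
      fun z => ?_).symm
    simp only [mem_prs, mem_invs, MulEquiv.toEquiv_eq_coe, Equiv.prodCongr_apply, Prod.map_fst,
      Prod.map_snd, EquivLike.coe_coe, MulAut.conj_apply, orderOf_conj', commute_conj_iff]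

lemma card_conj_class [Finite G] [Fintype G] [DecidableEq G] (u : G) (X : Finset G)
    (hX : ∀ v, v ∈ X ↔ ∃ h, h * u * h⁻¹ = v) :
    X.card * Nat.card (centralizer ({u} : Set G)) = Nat.card G := by
  rw [← H86.card_carrier_mul_card_centralizer u]
  congr 1
  rw [← Nat.card_eq_finsetCard]
  refine Nat.card_congr (Equiv.subtypeEquivRight fun v => ?_)
  rw [hX, ConjClasses.mem_carrier_iff_mk_eq, ConjClasses.mk_eq_mk_iff_isConj]
  exact ⟨fun ⟨h, e⟩ => (isConj_iff.2 ⟨h, e⟩).symm, fun h => isConj_iff.1 h.symm⟩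

variable [Finite G] {a b q p : ℕ}

lemma Core.exists_zpowers_conj (c : Core G a b q p) {z : G} {r : ℕ} (hr : r.Prime) (hr2 : r ≠ 2)
    (hz : orderOf z = r) (hra : r ∣ a) :
    ∃ z₀ ∈ c.A, orderOf z₀ = r ∧ ∃ h : G, zpowers z = zpowers (h * z₀ * h⁻¹) := by
  have := Fact.mk hr
  obtain ⟨x, hx⟩ := exists_prime_orderOf_dvd_card' (G := c.A) r (c.A_card.symm ▸ hra)
  have hx' : orderOf (x : G) = r := by rw [Subgroup.orderOf_coe, hx]
  refine ⟨x, x.2, hx', ?_⟩
  have hrp : r ≠ p := fun e => c.setup.p_not_dvd_a (e ▸ hra)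
  obtain ⟨P, hP⟩ := (IsPGroup.of_card (n := 1) (show Nat.card (zpowers (x : G)) = r ^ 1 by
    rw [Nat.card_zpowers, hx', pow_one])).exists_le_sylow
  obtain ⟨Q, hQ⟩ := (IsPGroup.of_card (n := 1) (show Nat.card (zpowers z) = r ^ 1 by
    rw [Nat.card_zpowers, hz, pow_one])).exists_le_sylow
  obtain ⟨h, hh⟩ := MulAction.exists_smul_eq G P Q
  refine ⟨h, ?_⟩
  have hm : h * (x : G) * h⁻¹ ∈ (Q : Subgroup G) := by
    rw [← hh, Sylow.coe_subgroup_smul]
    exact Subgroup.smul_mem_pointwise_smul _ (MulAut.conj h) _ (hP (mem_zpowers _))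
  have hc := c.setup.isCyclic_of_isPGroup hr hr2 hrp Q.2
  have key : ∀ u v : (Q : Subgroup G), orderOf (u : G) = r → orderOf (v : G) = r →
      zpowers (u : G) ≤ zpowers (v : G) := by
    intro u v hu hv
    rw [zpowers_le]
    obtain ⟨i, hi⟩ := InvCyclic.mem_zpowers_of_dvd (x := u) (w := v)
      (by rw [← Subgroup.orderOf_coe, ← Subgroup.orderOf_coe, hu, hv])
    exact ⟨i, congrArg Subtype.val hi⟩
  have hm' : orderOf (h * (x : G) * h⁻¹) = r := by rw [orderOf_conj', hx']
  exact le_antisymm (key ⟨z, hQ (mem_zpowers z)⟩ ⟨_, hm⟩ hz hm')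
    (key ⟨_, hm⟩ ⟨z, hQ (mem_zpowers z)⟩ hm' hz)

lemma commute_of_zpowers_eq {x z y : G} (he : zpowers x = zpowers z) (hy : Commute y x) :
    Commute y z := by
  obtain ⟨i, hi⟩ := he.symm ▸ mem_zpowers z
  exact hi ▸ hy.zpow_right i

/-- Two involutions with product a nontrivial `a`-element commute with a common involution. -/
theorem Core.exists_common (c : Core G a b q p) {v w : G} (hv : orderOf v = 2) (hw : orderOf w = 2)
    (ha : orderOf (v * w) ∣ a) (hne : ¬ Commute v w) :
    ∃ u, orderOf u = 2 ∧ Commute u v ∧ Commute u w := by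
  have hvv := sq_of_orderOf_two hv
  have hww := sq_of_orderOf_two hw
  set x := v * w with hx
  have hvx : v * x * v⁻¹ = x⁻¹ := by
    rw [hx, mul_inv_rev, inv_eq_of_mul_eq_one_right hww, inv_eq_of_mul_eq_one_right hvv,
      ← mul_assoc v v w, hvv, one_mul]
  have hwe : w = v * x := by rw [hx, ← mul_assoc, hvv, one_mul]
  suffices ∃ u, orderOf u = 2 ∧ Commute u v ∧ Commute u x by
    obtain ⟨u, h1, h2, h3⟩ := this
    exact ⟨u, h1, h2, hwe ▸ h2.mul_right h3⟩
  have hx1 : x ≠ 1 := fun e => hne (by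
    rw [hx] at e
    rw [eq_inv_of_mul_eq_one_left e]
    exact (Commute.refl w).inv_left)
  by_cases h2 : 2 ∣ orderOf x
  · refine ⟨x ^ (orderOf x / 2), orderOf_pow_orderOf_div (orderOf_pos x).ne' h2, ?_,
      (Commute.self_pow x _).symm⟩
    set u := x ^ (orderOf x / 2)
    have hu : orderOf u = 2 := orderOf_pow_orderOf_div (orderOf_pos x).ne' h2
    have : v * u * v⁻¹ = u := by
      rw [← conj_pow, hvx, inv_pow]
      exact inv_eq_of_mul_eq_one_right (sq_of_orderOf_two hu)
    exact (mul_inv_eq_iff_eq_mul.1 this).symm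
  have hr := Nat.minFac_prime (fun e => hx1 (orderOf_eq_one_iff.1 e))
  set r := (orderOf x).minFac
  have hrx : r ∣ orderOf x := Nat.minFac_dvd _
  have hr2 : r ≠ 2 := fun e => h2 (e ▸ hrx)
  set x₁ := x ^ (orderOf x / r)
  have hx₁ : orderOf x₁ = r := orderOf_pow_orderOf_div (orderOf_pos x).ne' hrx
  obtain ⟨z₀, hz₀, hz₀o, h, he⟩ := c.exists_zpowers_conj hr hr2 hx₁ (hrx.trans ha)
  set u := h * c.t * h⁻¹
  have hu : orderOf u = 2 := by rw [orderOf_conj', c.ht]
  have hcent : ∀ y, Commute y x₁ → Commute y u := by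
    intro y hy
    refine ((commute_conj_left h c.t y).2 (Commute.symm ?_)).symm
    refine (c.mem_C.1 (c.centralizer_le hz₀ (fun e => by
      rw [e, orderOf_one] at hz₀o; exact hr.ne_one hz₀o.symm) (mem_centralizer_singleton_iff.2 ?_)))
    exact ((commute_conj_left h z₀ y).1 (commute_of_zpowers_eq he hy).symm).symm
  have hux : Commute u x := (hcent x (Commute.self_pow x _)).symm
  set u' := v * u * v⁻¹ with hu'
  have hu'x : Commute u' x := by
    have := ((commute_conj_iff v u x).2 hux).inv_right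
    rwa [hvx, inv_inv] at this
  have huu' : Commute u' u := hcent u' (hu'x.pow_right _)
  by_cases e : u * u' = 1
  · refine ⟨u, hu, ?_, hux⟩
    have e' : u' = u := (eq_inv_of_mul_eq_one_right e).trans
      (inv_eq_of_mul_eq_one_right (sq_of_orderOf_two hu))
    exact (mul_inv_eq_iff_eq_mul.1 e').symm
  · refine ⟨u * u', orderOf_eq_prime ?_ e, ?_, hux.mul_left hu'x⟩
    · rw [huu'.symm.mul_pow, sq, sq, sq_of_orderOf_two hu,
        sq_of_orderOf_two (show orderOf u' = 2 by rw [hu', orderOf_conj', hu]), one_mul]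
    · have hvu' : v * u' * v⁻¹ = u := by
        rw [hu', inv_eq_of_mul_eq_one_right hvv]
        simp only [← mul_assoc, hvv, one_mul]
        rw [mul_assoc, hvv, mul_one]
      have : v * (u * u') * v⁻¹ = u * u' := by
        rw [show v * (u * u') * v⁻¹ = (v * u * v⁻¹) * (v * u' * v⁻¹) by group, hvu', ← hu']
        exact huu'
      exact (mul_inv_eq_iff_eq_mul.1 this).symm

/-- The counting identity. -/
theorem Core.count_eq (c : Core G a b q p) [Fintype G] [DecidableEq G]
    (huniq : ∀ u u' v w : G, orderOf u = 2 → orderOf u' = 2 → orderOf v = 2 → orderOf w = 2 →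
      Commute u v → Commute u w → Commute u' v → Commute u' w → ¬ Commute v w → u = u') :
    ∃ m, ({v | orderOf v = 2} : Finset G).card * ({v | orderOf v = 2} : Finset G).card =
      (∑ v ∈ ({v | orderOf v = 2} : Finset G), wt v) + Nat.card G * m := by
  classical
  set I := ({v | orderOf v = 2} : Finset G) with hI
  have hmI : ∀ v : G, v ∈ I ↔ orderOf v = 2 := fun v => by simp [hI]
  obtain ⟨m, hm⟩ := c.setup.dvd_card_pairs
  refine ⟨m, ?_⟩
  have h1 := Finset.card_filter_add_card_filter_not (s := I ×ˢ I)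
    (fun z : G × G => orderOf (z.1 * z.2) ∣ a)
  rw [Finset.card_product] at h1
  rw [← h1]
  congr 1
  set D := (I ×ˢ I).filter fun z : G × G => orderOf (z.1 * z.2) ∣ a with hD
  rw [← Finset.card_filter_add_card_filter_not (s := D) (fun z : G × G => Commute z.1 z.2)]
  unfold wt
  rw [Finset.sum_add_distrib]
  congr 1
  · have : D.filter (fun z : G × G => Commute z.1 z.2) =
        (I ×ˢ I).filter fun z : G × G => Commute z.1 z.2 := by
      rw [hD, Finset.filter_filter]
      refine Finset.filter_congr fun z hz => ⟨fun h => h.2, fun h => ⟨?_, h⟩⟩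
      obtain ⟨hz1, hz2⟩ := Finset.mem_product.1 hz
      refine dvd_trans (orderOf_dvd_of_pow_eq_one ?_) c.setup.a_even
      rw [h.mul_pow, sq, sq, sq_of_orderOf_two ((hmI _).1 hz1),
        sq_of_orderOf_two ((hmI _).1 hz2), one_mul]
    rw [this, Finset.card_filter, Finset.sum_product]
    refine Finset.sum_congr rfl fun v _ => ?_
    rw [← Finset.card_filter]
    congr 1
    ext w
    simp [mem_invs, hmI]
  · have : D.filter (fun z : G × G => ¬ Commute z.1 z.2) = I.biUnion prs := by
      ext z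
      simp only [hD, Finset.mem_filter, Finset.mem_product, Finset.mem_biUnion, mem_prs, mem_invs,
        hmI]
      constructor
      · rintro ⟨⟨⟨hz1, hz2⟩, hza⟩, hne⟩
        obtain ⟨u, hu, huv, huw⟩ := c.exists_common hz1 hz2 hza hne
        exact ⟨u, hu, ⟨⟨hz1, huv⟩, hz2, huw⟩, hne⟩
      · rintro ⟨u, hu, ⟨⟨hz1, huv⟩, hz2, huw⟩, hne⟩
        exact ⟨⟨⟨hz1, hz2⟩, c.setup.sep (ne_one_of_orderOf_two hu) (hu ▸ c.setup.a_even)
          (huv.mul_right huw)⟩, hne⟩
    rw [this, Finset.card_biUnion]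
    intro u hu u' hu' hne
    refine Finset.disjoint_left.2 fun z h1 h2 => hne ?_
    simp only [mem_prs, mem_invs] at h1 h2
    exact huniq u u' z.1 z.2 ((hmI u).1 hu) ((hmI u').1 hu') h1.1.1.1 h1.1.2.1 h1.1.1.2 h1.1.2.2
      h2.1.1.2 h2.1.2.2 h1.2

end Cfsg.Agent.H79.PSLSpec
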