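import Mathlib

/-!
# Groups with the order and the element orders of `PSL₂(q)`, `q` odd
-/

set_option autoImplicit false

namespace Cfsg.Agent.H79.PSLSpec

/-- `G` has the order and element orders of `PSL₂(q)`; `a` and `b` are `(q ± 1) / 2`, `a` even. -/
structure Setup (G : Type*) [Group G] [Finite G] (a b q p : ℕ) : Prop where
  p_prime : p.Prime
  q_pow : ∃ f, 0 < f ∧ q = p ^ f
  q_five : 5 ≤ q
  a_even : 2 ∣ a
  arith : (b = a + 1 ∧ q = 2 * a + 1) ∨ (b + 1 = a ∧ q + 1 = 2 * a)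
  card_eq : Nat.card G = 2 * a * b * q
  spec : ∀ g : G, orderOf g ∣ p ∨ orderOf g ∣ a ∨ orderOf g ∣ b
  exA : ∃ x : G, orderOf x = a
  exB : ∃ x : G, orderOf x = b

namespace Setup

variable {G : Type*} [Group G] [Finite G] {a b q p : ℕ} (h : Setup G a b q p)
include h

lemma a_two : 2 ≤ a := by rcases h.arith with ⟨h1, h2⟩ | ⟨h1, h2⟩ <;> have := h.q_five <;> omega

lemma b_two : 2 ≤ b := by
  obtain ⟨c, hc⟩ := h.a_even
  rcases h.arith with ⟨h1, h2⟩ | ⟨h1, h2⟩ <;> have := h.q_five <;> omega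

lemma b_odd : Odd b := by
  obtain ⟨c, hc⟩ := h.a_even
  rw [Nat.odd_iff]
  rcases h.arith with ⟨h1, h2⟩ | ⟨h1, h2⟩ <;> omega

lemma p_dvd_q : p ∣ q := by
  obtain ⟨f, hf, rfl⟩ := h.q_pow
  exact dvd_pow_self _ hf.ne'

lemma p_ne_two : p ≠ 2 := by
  rintro rfl
  have := h.p_dvd_q
  rcases h.arith with ⟨h1, h2⟩ | ⟨h1, h2⟩ <;> omega

lemma not_dvd_a_b {r : ℕ} (hr : r.Prime) (ha : r ∣ a) (hb : r ∣ b) : False := by
  rcases h.arith with ⟨h1, -⟩ | ⟨h1, -⟩
  · rw [h1] at hb
    exact hr.not_dvd_one ((Nat.dvd_add_right ha).1 hb)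
  · rw [← h1] at ha
    exact hr.not_dvd_one ((Nat.dvd_add_right hb).1 ha)

lemma p_not_dvd_a : ¬ p ∣ a := by
  intro ha
  have hq := h.p_dvd_q
  rcases h.arith with ⟨-, h2⟩ | ⟨-, h2⟩
  · rw [h2] at hq
    exact h.p_prime.not_dvd_one ((Nat.dvd_add_right (Dvd.dvd.mul_left ha 2)).1 hq)
  · have : p ∣ q + 1 := h2 ▸ Dvd.dvd.mul_left ha 2
    exact h.p_prime.not_dvd_one ((Nat.dvd_add_right hq).1 this)

lemma p_not_dvd_b : ¬ p ∣ b := by
  intro hb
  have hq := h.p_dvd_q
  rcases h.arith with ⟨h1, h2⟩ | ⟨h1, h2⟩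
  · have : p ∣ q + 1 := (show q + 1 = 2 * b by omega) ▸ Dvd.dvd.mul_left hb 2
    exact h.p_prime.not_dvd_one ((Nat.dvd_add_right hq).1 this)
  · rw [show q = 2 * b + 1 by omega] at hq
    exact h.p_prime.not_dvd_one ((Nat.dvd_add_right (Dvd.dvd.mul_left hb 2)).1 hq)

lemma eq_p_of_dvd_q {r : ℕ} (hr : r.Prime) (hd : r ∣ q) : r = p := by
  obtain ⟨f, -, rfl⟩ := h.q_pow
  exact (Nat.prime_dvd_prime_iff_eq hr h.p_prime).1 (hr.dvd_of_dvd_pow hd)

lemma two_not_dvd_b : ¬ 2 ∣ b := fun h2 => by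
  obtain ⟨c, hc⟩ := h.b_odd
  omega

/-- Primes of `a` and the other primes are not joined. -/
lemma excl {l r : ℕ} (hl : l.Prime) (_hr : r.Prime) (hla : l ∣ a) (hra : ¬ r ∣ a) (g : G) :
    ¬ l * r ∣ orderOf g := by
  intro hg
  have h1 : l ∣ orderOf g := (dvd_mul_right l r).trans hg
  have h2 : r ∣ orderOf g := (dvd_mul_left r l).trans hg
  rcases h.spec g with hs | hs | hs
  · exact h.p_not_dvd_a (((Nat.prime_dvd_prime_iff_eq hl h.p_prime).1 (h1.trans hs)) ▸ hla)
  · exact hra (h2.trans hs)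
  · exact h.not_dvd_a_b hl hla (h1.trans hs)

/-- Centralisers of nontrivial `a`-elements consist of `a`-elements. -/
lemma sep {x y : G} (hx : x ≠ 1) (hxa : orderOf x ∣ a) (hxy : Commute x y) : orderOf y ∣ a := by
  have key : ∀ r : ℕ, r.Prime → r ∣ orderOf y → r ∣ a := by
    intro r hr hry
    by_contra hra
    have hl := Nat.minFac_prime (fun e => hx (orderOf_eq_one_iff.1 e))
    set l := (orderOf x).minFac
    have hla : l ∣ a := (Nat.minFac_dvd _).trans hxa
    set x' := x ^ (orderOf x / l)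
    set y' := y ^ (orderOf y / r)
    have hx' : orderOf x' = l := orderOf_pow_orderOf_div (orderOf_pos x).ne' (Nat.minFac_dvd _)
    have hy' : orderOf y' = r := orderOf_pow_orderOf_div (orderOf_pos y).ne' hry
    have hne : l ≠ r := fun e => hra (e ▸ hla)
    have : orderOf (x' * y') = l * r := by
      rw [Commute.orderOf_mul_eq_mul_orderOf_of_coprime (hxy.pow_pow _ _)
        (by rw [hx', hy']; exact (Nat.coprime_primes hl hr).2 hne), hx', hy']
    exact h.excl hl hr hla hra (x' * y') this.symm.dvd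
  rcases h.spec y with hs | hs | hs
  · rcases (Nat.dvd_prime h.p_prime).1 hs with e | e
    · rw [e]; exact one_dvd a
    · exact absurd (key p h.p_prime (e ▸ dvd_rfl)) h.p_not_dvd_a
  · exact hs
  · by_cases e : orderOf y = 1
    · rw [e]; exact one_dvd a
    · exact (h.not_dvd_a_b (Nat.minFac_prime e) (key _ (Nat.minFac_prime e) (Nat.minFac_dvd _))
        ((Nat.minFac_dvd _).trans hs)).elim

lemma card_dvd {H : Subgroup G} (hH : ∀ x ∈ H, orderOf x ∣ a) : Nat.card H ∣ 2 * a := by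
  have hG : Nat.card H ∣ 2 * a * (b * q) := by
    rw [← mul_assoc, ← h.card_eq]; exact Subgroup.card_subgroup_dvd_card H
  refine Nat.Coprime.dvd_of_dvd_mul_right ?_ hG
  by_contra hc
  obtain ⟨r, hr, hr1, hr2⟩ := Nat.Prime.not_coprime_iff_dvd.1 hc
  have := Fact.mk hr
  obtain ⟨x, hx⟩ := exists_prime_orderOf_dvd_card' r hr1
  have hxa : r ∣ a := by
    have := hH x x.2
    rwa [Subgroup.orderOf_coe, hx] at this
  rcases hr.dvd_mul.1 hr2 with hb | hq
  · exact h.not_dvd_a_b hr hxa hb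
  · exact h.p_not_dvd_a (h.eq_p_of_dvd_q hr hq ▸ hxa)

lemma card_centralizer_dvd {x : G} (hx : x ≠ 1) (hxa : orderOf x ∣ a) :
    Nat.card (Subgroup.centralizer ({x} : Set G)) ∣ 2 * a :=
  h.card_dvd fun _ hy => h.sep hx hxa (Subgroup.mem_centralizer_singleton_iff.1 hy).symm

lemma dvd_card {d : ℕ} (hd : d ∣ a ∨ d ∣ b ∨ d ∣ q) : d ∣ Nat.card G := by
  rw [h.card_eq]
  rcases hd with hd | hd | hd
  · exact (Dvd.dvd.mul_left hd 2).mul_right b |>.mul_right q
  · exact (Dvd.dvd.mul_left hd (2 * a)).mul_right q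
  · exact Dvd.dvd.mul_left hd _

/-- For odd primes other than `p` the Sylow subgroups are cyclic. -/
lemma isCyclic_of_isPGroup {r : ℕ} (hr : r.Prime) (hr2 : r ≠ 2) (hrp : r ≠ p) {R : Subgroup G}
    (hR : IsPGroup r R) : IsCyclic R := by
  have := Fact.mk hr
  set k := (Nat.card G).factorization r with hk
  have hd : r ^ k ∣ Nat.card G := Nat.ordProj_dvd _ _
  rw [h.card_eq] at hd
  have hc2 : (r ^ k).Coprime 2 := ((Nat.coprime_primes hr Nat.prime_two).2 hr2).pow_left k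
  have hcq : (r ^ k).Coprime q := by
    obtain ⟨f, -, rfl⟩ := h.q_pow
    exact Nat.Coprime.pow k f ((Nat.coprime_primes hr h.p_prime).2 hrp)
  have hab : r ^ k ∣ a ∨ r ^ k ∣ b := by
    have h1 : r ^ k ∣ a * b := by
      refine hc2.dvd_of_dvd_mul_left ?_
      rw [← mul_assoc]
      exact hcq.dvd_of_dvd_mul_right hd
    rcases Nat.eq_zero_or_pos k with k0 | kpos
    · left; simp [k0]
    · have hrd : r ∣ a * b := (dvd_pow_self r kpos.ne').trans h1
      rcases hr.dvd_mul.1 hrd with ha | hb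
      · left
        exact (((Nat.Prime.coprime_iff_not_dvd hr).2 fun hb => h.not_dvd_a_b hr ha hb).pow_left k
          ).dvd_of_dvd_mul_right h1
      · right
        exact (((Nat.Prime.coprime_iff_not_dvd hr).2 fun ha => h.not_dvd_a_b hr ha hb).pow_left k
          ).dvd_of_dvd_mul_left h1
  obtain ⟨z, hz⟩ : ∃ z : G, orderOf z = r ^ k := by
    rcases hab with hd | hd
    · obtain ⟨x, hx⟩ := h.exA
      exact ⟨x ^ (orderOf x / r ^ k), orderOf_pow_orderOf_div (orderOf_pos x).ne' (hx ▸ hd)⟩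
    · obtain ⟨x, hx⟩ := h.exB
      exact ⟨x ^ (orderOf x / r ^ k), orderOf_pow_orderOf_div (orderOf_pos x).ne' (hx ▸ hd)⟩
  let P : Sylow r G := Sylow.ofCard (Subgroup.zpowers z) (by rw [Nat.card_zpowers, hz])
  obtain ⟨Q, hQ⟩ := hR.exists_le_sylow
  have hP : IsCyclic (P : Subgroup G) := by
    simp only [P, Sylow.coe_ofCard]
    exact (Subgroup.isCyclic_iff_exists_zpowers_eq_top _).2 ⟨z, rfl⟩
  have hQc : IsCyclic (Q : Subgroup G) := (Sylow.equiv P Q).isCyclic.1 hP
  exact isCyclic_of_injective (Subgroup.inclusion hQ) (Subgroup.inclusion_injective hQ)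

/-- No element has order a proper multiple of the full 2-part of `a`. -/
lemma no_big_two (g : G) : orderOf g ≠ 2 ^ (a.factorization 2 + 1) := by
  intro hg
  have h2 : 2 ∣ orderOf g := hg ▸ dvd_pow_self 2 (Nat.succ_ne_zero _)
  rcases h.spec g with hs | hs | hs
  · exact h.p_ne_two ((Nat.prime_dvd_prime_iff_eq Nat.prime_two h.p_prime).1 (h2.trans hs)).symm
  · exact Nat.pow_succ_factorization_not_dvd (by have := h.a_two; omega) Nat.prime_two (hg ▸ hs)
  · exact h.two_not_dvd_b (h2.trans hs)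

lemma factorization_two : (Nat.card G).factorization 2 = a.factorization 2 + 1 := by
  have ha : a ≠ 0 := by have := h.a_two; omega
  have hb : b ≠ 0 := by have := h.b_two; omega
  have hq : q ≠ 0 := by have := h.q_five; omega
  have hb2 : b.factorization 2 = 0 := Nat.factorization_eq_zero_of_not_dvd h.two_not_dvd_b
  have hq2 : q.factorization 2 = 0 := Nat.factorization_eq_zero_of_not_dvd fun hd =>
    h.p_ne_two (h.eq_p_of_dvd_q Nat.prime_two hd).symm
  rw [h.card_eq, Nat.factorization_mul (by simp [ha, hb]) hq,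
    Nat.factorization_mul (by simp [ha]) hb, Nat.factorization_mul two_ne_zero ha,
    Nat.Prime.factorization Nat.prime_two]
  simp [hb2, hq2]
  omega

/-- A quotient has no element order forbidden in `G`. -/
lemma excl_quotient {l r : ℕ} (hl : l.Prime) (hr : r.Prime) (hla : l ∣ a) (hra : ¬ r ∣ a)
    {N : Subgroup G} [N.Normal] (z : G ⧸ N) : ¬ l * r ∣ orderOf z := by
  intro hz
  obtain ⟨g, rfl⟩ := QuotientGroup.mk'_surjective N z
  exact h.excl hl hr hla hra g (hz.trans (orderOf_map_dvd _ g))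

end Setup

/-- The automorphism group of a cyclic group of odd prime power order is cyclic. -/
lemma isCyclic_mulAut {R : Type*} [Group R] [Finite R] [IsCyclic R] {r : ℕ} (hr : r.Prime)
    (hr2 : r ≠ 2) (hR : IsPGroup r R) : IsCyclic (MulAut R) := by
  have := Fact.mk hr
  obtain ⟨n, hn⟩ := IsPGroup.iff_card.1 hR
  have h1 : IsCyclic (ZMod (Nat.card R))ˣ := by
    rw [hn]; exact ZMod.isCyclic_units_of_prime_pow r hr hr2 n
  exact (IsCyclic.mulAutMulEquiv R).isCyclic.2 h1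

end Cfsg.Agent.H79.PSLSpec
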