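import Cfsg.Agent.H79.PSLSpec.Class
import Cfsg.Agent.S0206

/-!
# Simplicity
-/

set_option autoImplicit false

namespace Cfsg.Agent.H79.PSLSpec

open Subgroup

variable {G : Type*} [Group G] [Finite G] {a b q p : ℕ}

namespace Fus

variable (c : Fus G a b q p)

lemma s_inverts {y w : G} (hy : y ∈ c.C) (hyA : y ∉ c.A) (hw : w ∈ c.A) : y * w * y⁻¹ = w⁻¹ := by
  rcases c.split hy with h | ⟨x, hx, rfl⟩
  · exact absurd h hyA
  · have e : x * w * x⁻¹ = w := by rw [c.A_comm hx hw, mul_inv_cancel_right]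
    calc c.s * x * w * (c.s * x)⁻¹ = c.s * (x * w * x⁻¹) * c.s⁻¹ := by group
      _ = w⁻¹ := by rw [e, inv_eq_of_mul_eq_one_right c.ss, c.inverts ⟨w, hw⟩]

/-- A dihedral Sylow 2-subgroup inside `C(t)`. -/
theorem exists_dihedral_sylow : ∃ (P : Sylow 2 G) (σ : G), σ ∈ c.A ∧
    orderOf σ = 2 ^ a.factorization 2 ∧ c.s ∈ (P : Subgroup G) ∧ σ ∈ (P : Subgroup G) ∧
    c.t ∈ (P : Subgroup G) ∧ (P : Subgroup G) ≤ c.C ∧
    Nat.card (P : Subgroup G) = 2 * 2 ^ a.factorization 2 ∧
    Nonempty ((P : Subgroup G) ≃* DihedralGroup (2 ^ a.factorization 2)) := by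
  have := Fact.mk Nat.prime_two
  have := c.A_cyc
  set k := a.factorization 2
  have ha := c.setup.a_two
  have hkd : 2 ^ k ∣ a := Nat.ordProj_dvd _ _
  have hk1 : 1 ≤ k := Nat.Prime.factorization_pos_of_dvd Nat.prime_two (by omega) c.setup.a_even
  obtain ⟨x, hx⟩ := IsCyclic.exists_ofOrder_eq_natCard (α := c.A)
  rw [c.A_card, ← Subgroup.orderOf_coe] at hx
  set σ := (x : G) ^ (orderOf (x : G) / 2 ^ k)
  have hσA : σ ∈ c.A := pow_mem x.2 _
  have hσ : orderOf σ = 2 ^ k := orderOf_pow_orderOf_div (orderOf_pos _).ne' (by rw [hx]; exact hkd)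
  have hσ1 : σ ≠ 1 := fun e => by
    rw [e, orderOf_one] at hσ
    exact absurd hσ (Nat.one_lt_two_pow (by omega)).ne
  have hso : orderOf (c.s * σ) = 2 := c.s_mul_invol ⟨σ, hσA⟩ (c.structure_eq.2.2 _)
  have hne : c.s ≠ c.s * σ := fun e => hσ1 (mul_eq_left.1 e.symm)
  obtain ⟨e⟩ := S0206.result c.s (c.s * σ) c.hs hso hne
  rw [← mul_assoc, c.ss, one_mul, hσ] at e
  set K := closure ({c.s, c.s * σ} : Set G)
  have hK : Nat.card K = 2 * 2 ^ k := by rw [Nat.card_congr e.toEquiv, DihedralGroup.nat_card]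
  let P : Sylow 2 G := Sylow.ofCard K (by rw [hK, c.setup.factorization_two, pow_succ'])
  have hsK : c.s ∈ K := subset_closure (by simp)
  have hσK : σ ∈ K := by
    have : c.s * (c.s * σ) ∈ K := mul_mem hsK (subset_closure (by simp))
    rwa [← mul_assoc, c.ss, one_mul] at this
  have hσ2 : orderOf (σ ^ (2 ^ (k - 1))) = 2 := by
    have h := orderOf_pow_orderOf_div (x := σ) (n := 2) (orderOf_pos σ).ne'
      (hσ ▸ dvd_pow_self 2 (by omega))
    rwa [hσ, show 2 ^ k / 2 = 2 ^ (k - 1) from Nat.pow_div hk1 two_pos] at h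
  have htσ : σ ^ (2 ^ (k - 1)) = c.t := (c.eq_t (pow_mem hσA _)
    (by rw [sq, sq_of_orderOf_two hσ2])).resolve_left (ne_one_of_orderOf_two hσ2)
  have hKC : K ≤ c.C := by
    rw [closure_le]
    rintro _ (rfl | rfl)
    exacts [c.sC, mul_mem c.sC (c.A_le hσA)]
  exact ⟨P, σ, hσA, hσ, hsK, hσK, (htσ ▸ pow_mem hσK _ : c.t ∈ K), hKC, hK, ⟨e⟩⟩

include c in
/-- `G` is simple. -/
theorem normal_eq_top {N : Subgroup G} [hN : N.Normal] (hne : N ≠ ⊥) : N = ⊤ := by
  classical
  have := Fact.mk Nat.prime_two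
  have ha := c.setup.a_two
  have heven : 2 ∣ Nat.card N := by
    by_contra h
    exact hne (c.odd_normal_eq_bot (Nat.odd_iff.2 (Nat.two_dvd_ne_zero.1 h)))
  obtain ⟨u, hu⟩ := exists_prime_orderOf_dvd_card' (G := N) 2 heven
  rw [← Subgroup.orderOf_coe] at hu
  have htN : c.t ∈ N := by
    obtain ⟨h, hh⟩ := c.one_class hu
    have := hN.conj_mem _ u.2 h⁻¹
    rwa [← hh, inv_inv, show h⁻¹ * (h * c.t * h⁻¹) * h = c.t by group] at this
  have hinv : ∀ v : G, orderOf v = 2 → v ∈ N := fun v hv => by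
    obtain ⟨h, rfl⟩ := c.one_class hv
    exact hN.conj_mem _ htN h
  have hsN : c.s ∈ N := hinv _ c.hs
  have hCN : c.C ≤ N := fun w hw => by
    have key : ∀ x ∈ c.A, x ∈ N := fun x hx => by
      have h1 := mul_mem hsN (hinv _ (c.s_mul_invol ⟨x, hx⟩ (c.structure_eq.2.2 _)))
      rwa [← mul_assoc, c.ss, one_mul] at h1
    rcases c.split hw with h | ⟨x, hx, rfl⟩
    · exact key w h
    · exact mul_mem hsN (key x hx)
  obtain ⟨P, σ, hσA, hσ, hsP, hσP, htP, hPC, hPcard, -⟩ := c.exists_dihedral_sylow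
  set k := a.factorization 2
  have hk1 : 1 ≤ k := Nat.Prime.factorization_pos_of_dvd Nat.prime_two (by omega) c.setup.a_even
  suffices hnorm : normalizer ((P : Subgroup G) : Set G) ≤ N by
    have hfr := Sylow.normalizer_sup_eq_top (P.subtype (hPC.trans hCN))
    rw [show ((P.subtype (hPC.trans hCN) : Sylow 2 N) : Subgroup N).map N.subtype = P from by
      rw [Sylow.coe_subtype, Subgroup.map_subgroupOf_eq_of_le (hPC.trans hCN)]] at hfr
    rw [← hfr, sup_eq_right.2 hnorm]
  rcases Nat.lt_or_ge k 2 with hk | hk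
  swap
  · intro y hy
    set z := σ ^ (2 ^ (k - 2))
    have hz : orderOf z = 4 := by
      have h := orderOf_pow_orderOf_div (x := σ) (n := 2 ^ 2) (orderOf_pos σ).ne'
        (hσ ▸ pow_dvd_pow 2 hk)
      rwa [hσ, Nat.pow_div hk two_pos] at h
    have hz2 : orderOf (z * z) = 2 := by rw [← sq, orderOf_pow, hz]; rfl
    have hzt : z * z = c.t := (c.eq_t (mul_mem (pow_mem hσA _) (pow_mem hσA _))
      (by rw [sq, sq_of_orderOf_two hz2])).resolve_left (ne_one_of_orderOf_two hz2)
    have hm : y * z * y⁻¹ ∈ c.C := hPC ((mem_normalizer_iff.1 hy z).1 (pow_mem hσP _))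
    have h1 : y * c.t * y⁻¹ ∈ c.A := by
      rw [← hzt, show y * (z * z) * y⁻¹ = y * z * y⁻¹ * (y * z * y⁻¹) by group]
      exact c.sq_mem_A hm
    have h2 : orderOf (y * c.t * y⁻¹) = 2 := by rw [orderOf_conj', c.ht]
    rcases c.eq_t h1 (by rw [sq, sq_of_orderOf_two h2]) with e | e
    · exact absurd e (ne_one_of_orderOf_two h2)
    · refine hCN (c.mem_C.2 ?_)
      exact (mul_inv_eq_iff_eq_mul.1 e)
  have hk : k = 1 := by omega
  have h4 : ¬ 4 ∣ a := fun h => by
    have := (Nat.Prime.pow_dvd_iff_le_factorization Nat.prime_two (show a ≠ 0 by omega)).1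
      (show 2 ^ 2 ∣ a from h)
    omega
  have hPA : ∀ x ∈ (P : Subgroup G), x ∈ c.A → x = 1 ∨ x = c.t := by
    intro x hx hxA
    refine c.eq_t hxA (orderOf_dvd_iff_pow_eq_one.1 ?_)
    have h1 : orderOf x ∣ 2 ^ 2 := by
      have := Subgroup.orderOf_dvd_natCard (P : Subgroup G) hx
      rwa [hPcard, hk] at this
    obtain ⟨i, hi, he⟩ := (Nat.dvd_prime_pow Nat.prime_two).1 h1
    rw [he]
    rcases Nat.lt_or_ge i 2 with hi2 | hi2
    · exact (pow_dvd_pow 2 (Nat.lt_succ_iff.1 hi2)).trans (by norm_num)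
    · exact absurd ((show (4 : ℕ) ∣ orderOf x by rw [he, show i = 2 by omega]; norm_num).trans
        (c.A_dvd hxA)) h4
  have henum : ∀ w ∈ (P : Subgroup G), w = 1 ∨ w = c.t ∨ w = c.s ∨ w = c.s * c.t := by
    intro w hw
    rcases c.split (hPC hw) with h | ⟨x, hx, rfl⟩
    · rcases hPA w hw h with e | e
      · exact Or.inl e
      · exact Or.inr (Or.inl e)
    · have hxP : x ∈ (P : Subgroup G) := by
        have := mul_mem hsP hw
        rwa [← mul_assoc, c.ss, one_mul] at this
      rcases hPA x hxP hx with e | e <;> rw [e]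
      · exact Or.inr (Or.inr (Or.inl (mul_one _)))
      · exact Or.inr (Or.inr (Or.inr rfl))
  have hNC : ∀ y ∈ normalizer ((P : Subgroup G) : Set G), y ∈ c.C → y ∈ (P : Subgroup G) := by
    have key : ∀ x ∈ c.A, x ∈ normalizer ((P : Subgroup G) : Set G) → x ∈ (P : Subgroup G) := by
      intro x hx hxN
      have h1 : x * c.s * x⁻¹ ∈ (P : Subgroup G) := (mem_normalizer_iff.1 hxN c.s).1 hsP
      have h2 : x⁻¹ * x⁻¹ ∈ (P : Subgroup G) := by
        have h3 := mul_mem hsP h1
        rw [show c.s * (x * c.s * x⁻¹) = c.s * x * c.s * x⁻¹ by group, c.inverts ⟨x, hx⟩] at h3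
        exact h3
      have h4' : orderOf x ∣ 4 := by
        refine orderOf_dvd_of_pow_eq_one ?_
        rw [show x ^ 4 = ((x⁻¹ * x⁻¹) ^ 2)⁻¹ by group]
        rcases hPA _ h2 (mul_mem (inv_mem hx) (inv_mem hx)) with e | e <;> rw [e] <;>
          simp [sq, c.t_sq]
      have h5 : orderOf x ∣ 2 := by
        have h6 := Nat.dvd_gcd h4' (c.A_dvd hx)
        have h7 : Nat.gcd 4 a = 2 := by
          obtain ⟨i, hi⟩ := c.setup.a_even
          have : a % 4 = 2 := by omega
          rw [Nat.gcd_rec, this]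
          rfl
        rwa [h7] at h6
      rcases c.eq_t hx (orderOf_dvd_iff_pow_eq_one.1 h5) with e | e <;> rw [e]
      exacts [one_mem _, htP]
    intro y hy hyC
    rcases c.split hyC with h | ⟨x, hx, rfl⟩
    · exact key y h hy
    · refine mul_mem hsP (key x hx ?_)
      have := mul_mem (le_normalizer hsP) hy
      rwa [← mul_assoc, c.ss, one_mul] at this
  by_cases hfix : ∀ n ∈ N, n ∈ normalizer ((P : Subgroup G) : Set G) → n ∈ (P : Subgroup G)
  · exfalso
    have hcomm : ∀ x ∈ (P : Subgroup G), ∀ y ∈ (P : Subgroup G), x * y = y * x := by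
      have hc : Commute c.s c.t := c.s_comm
      have hst : ∀ x ∈ (P : Subgroup G), Commute x c.s ∧ Commute x c.t := fun x hx => by
        rcases henum x hx with rfl | rfl | rfl | rfl
        · exact ⟨Commute.one_left _, Commute.one_left _⟩
        · exact ⟨hc.symm, Commute.refl _⟩
        · exact ⟨Commute.refl _, hc⟩
        · exact ⟨(Commute.refl _).mul_left hc.symm, hc.mul_left (Commute.refl _)⟩
      intro x hx y hy
      rcases henum y hy with rfl | rfl | rfl | rfl
      · simp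
      · exact (hst x hx).2
      · exact (hst x hx).1
      · exact (hst x hx).1.mul_right (hst x hx).2
    let P' : Sylow 2 N := P.subtype (hPC.trans hCN)
    have hP' : ∀ n : N, n ∈ (P' : Subgroup N) ↔ (n : G) ∈ (P : Subgroup G) := fun n => Iff.rfl
    have hburn : normalizer ((P' : Subgroup N) : Set N) ≤ centralizer ((P' : Subgroup N) : Set N) := by
      intro n hn
      have h1 : (n : G) ∈ (P : Subgroup G) := by
        refine hfix n n.2 (mem_normalizer_iff.2 fun w => ?_)
        by_cases hwN : w ∈ N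
        · exact mem_normalizer_iff.1 hn ⟨w, hwN⟩
        · refine iff_of_false (fun h => hwN (hPC.trans hCN h)) fun h => hwN ?_
          have := hN.conj_mem _ (hPC.trans hCN h) (n : G)⁻¹
          rwa [inv_inv, show (n : G)⁻¹ * (n * w * (n : G)⁻¹) * n = w by group] at this
      exact mem_centralizer_iff.2 fun m hm => Subtype.ext (hcomm m hm n h1)
    have hK := MonoidHom.not_dvd_card_ker_transferSylow P' hburn
    set f := MonoidHom.transferSylow P' hburn
    have hpow : ∀ z : (P' : Subgroup N), ∀ m : ℕ, Odd m → z ^ m = 1 → z = 1 := by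
      intro z m hm h1
      obtain ⟨i, hi⟩ := IsPGroup.iff_orderOf.1 P'.2 z
      have h2 := orderOf_dvd_of_pow_eq_one h1
      rw [hi] at h2
      rcases Nat.eq_zero_or_pos i with rfl | hi0
      · rw [pow_zero] at hi; exact orderOf_eq_one_iff.1 hi
      · obtain ⟨j, hj⟩ := hm
        have := (dvd_pow_self 2 hi0.ne').trans h2
        omega
    set K := f.ker.map N.subtype with hKdef
    have hKn : K.Normal := by
      refine ⟨fun x hx g => ?_⟩
      obtain ⟨x, hx, rfl⟩ := hx
      refine ⟨⟨g * x * g⁻¹, hN.conj_mem _ x.2 g⟩, ?_, rfl⟩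
      show f _ = 1
      have hodd : Odd (orderOf (x : G)) := by
        rw [Subgroup.orderOf_coe, Nat.odd_iff, ← Nat.two_dvd_ne_zero]
        intro h
        exact hK (h.trans (Subgroup.orderOf_dvd_natCard f.ker hx))
      refine hpow _ _ hodd ?_
      rw [← map_pow, show (⟨g * x * g⁻¹, hN.conj_mem _ x.2 g⟩ : N) ^ orderOf (x : G) = 1 from
        Subtype.ext (show (g * (x : G) * g⁻¹) ^ orderOf (x : G) = 1 by
          rw [conj_pow, pow_orderOf_eq_one]; group), map_one]
    have hKodd : Odd (Nat.card K) := by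
      rw [Nat.card_congr (f.ker.equivMapOfInjective N.subtype N.subtype_injective).toEquiv.symm,
        Nat.odd_iff, ← Nat.two_dvd_ne_zero]
      exact hK
    have hKbot := c.odd_normal_eq_bot (hn := hKn) hKodd
    have hker : f.ker = ⊥ := (Subgroup.map_eq_bot_iff_of_injective _ N.subtype_injective).1 hKbot
    have h1 : Nat.card N ≤ 2 ^ 2 := by
      refine (Nat.card_le_card_of_injective f ((MonoidHom.ker_eq_bot_iff f).1 hker)).trans_eq ?_
      show Nat.card ((P : Subgroup G).subgroupOf N) = _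
      rw [Nat.card_congr (Subgroup.subgroupOfEquivOfLe (hPC.trans hCN)).toEquiv, hPcard, hk]
      rfl
    have h2 := (Subgroup.card_le_of_le hCN).trans h1
    rw [c.card_C] at h2
    have ha2 : a = 2 := by omega
    have hN4 : Nat.card N = 4 := by
      have := Subgroup.card_le_of_le hCN
      rw [c.card_C] at this
      omega
    have hNP : N = (P : Subgroup G) := (Subgroup.eq_of_le_of_card_ge (hPC.trans hCN)
      (by rw [hN4, hPcard, hk]; norm_num)).symm
    have hI : ∀ v : G, orderOf v = 2 → v = c.t ∨ v = c.s ∨ v = c.s * c.t := fun v hv =>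
      (henum v (hNP ▸ hinv v hv)).resolve_left (ne_one_of_orderOf_two hv)
    let : Fintype G := Fintype.ofFinite G
    set X := ({v | ∃ h, h * c.t * h⁻¹ = v} : Finset G)
    have hX := card_conj_class c.t X fun v => by simp [X]
    have hX3 : X.card ≤ 3 := by
      refine (Finset.card_le_card (t := {c.t, c.s, c.s * c.t}) ?_).trans Finset.card_le_three
      intro v hv
      simp only [X, Finset.mem_filter, Finset.mem_univ, true_and] at hv
      obtain ⟨h, e⟩ := hv
      rcases hI v (by rw [← e, orderOf_conj', c.ht]) with e' | e' | e' <;> simp [e']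
    rw [c.card_C, c.setup.card_eq, ha2] at hX
    have hb := c.setup.b_two
    have hq := c.setup.q_five
    have : 2 * 5 ≤ b * q := Nat.mul_le_mul hb hq
    nlinarith
  · push Not at hfix
    obtain ⟨n, hnN, hnn, hnP⟩ := hfix
    have hsqmem : ∀ y, y ∈ normalizer ((P : Subgroup G) : Set G) →
        y * c.t * y⁻¹ = c.t ∨ y * c.t * y⁻¹ = c.s ∨ y * c.t * y⁻¹ = c.s * c.t := fun y hy =>
      (henum _ ((mem_normalizer_iff.1 hy c.t).1 htP)).resolve_left fun e =>
        c.t_ne_one (conj_eq_one_iff.1 e)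
    have hC_of : ∀ y, y * c.t * y⁻¹ = c.t → y ∈ c.C := fun y e =>
      c.mem_C.2 (mul_inv_eq_iff_eq_mul.1 e)
    have hn1 : n * c.t * n⁻¹ ≠ c.t := fun e => hnP (hNC n hnn (hC_of n e))
    have hn2 : (n * n) * c.t * (n * n)⁻¹ ≠ c.t := fun e => hnP (by
      have h1 := hNC _ (mul_mem hnn hnn) (hC_of _ e)
      have h2 : orderOf n ∣ 2 ^ 2 := by
        refine orderOf_dvd_of_pow_eq_one ?_
        have h3 : (n * n) ^ 2 = 1 := by
          rcases henum _ h1 with e | e | e | e <;> rw [e]
          · simp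
          · rw [sq, c.t_sq]
          · rw [sq, c.ss]
          · rw [sq, sq_of_orderOf_two (c.s_mul_invol ⟨c.t, c.tA⟩ c.phi_t)]
        rw [← h3, ← sq, ← pow_mul]; norm_num
      obtain ⟨i, -, he⟩ := (Nat.dvd_prime_pow Nat.prime_two).1 h2
      exact mem_sylow_of_normalizes P he hnn)
    have hn12 : (n * n) * c.t * (n * n)⁻¹ ≠ n * c.t * n⁻¹ := fun e => hn1 (by
      rw [show (n * n) * c.t * (n * n)⁻¹ = n * (n * c.t * n⁻¹) * n⁻¹ by group] at e
      exact mul_left_cancel (mul_right_cancel e))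
    intro y hy
    have hy1 := hsqmem y hy
    have hy2 := hsqmem n hnn
    have hy3 := hsqmem (n * n) (mul_mem hnn hnn)
    have h : y * c.t * y⁻¹ = c.t ∨ y * c.t * y⁻¹ = n * c.t * n⁻¹ ∨
        y * c.t * y⁻¹ = (n * n) * c.t * (n * n)⁻¹ := by
      rcases hy2 with e | e | e <;> rcases hy3 with e' | e' | e' <;>
        first
          | exact absurd e hn1
          | exact absurd e' hn2
          | exact absurd (e'.trans e.symm) hn12
          | (rw [e, e']; tauto)
    have fin : ∀ z ∈ N, y * c.t * y⁻¹ = z * c.t * z⁻¹ → y ∈ N := fun z hz e => by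
      have h1 : z⁻¹ * y ∈ N := hCN (hC_of _ (by
        rw [show z⁻¹ * y * c.t * (z⁻¹ * y)⁻¹ = z⁻¹ * (y * c.t * y⁻¹) * z by group, e]
        group))
      simpa using mul_mem hz h1
    rcases h with e | e | e
    · exact hCN (hC_of y e)
    · exact fin n hnN e
    · exact fin _ (mul_mem hnN hnN) e

theorem isSimpleGroup (c : Fus G a b q p) : IsSimpleGroup G :=
  have : Nontrivial G := ⟨⟨c.t, 1, c.t_ne_one⟩⟩
  ⟨fun N _ => or_iff_not_imp_left.2 fun hne => c.normal_eq_top hne⟩

end Fus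

end Cfsg.Agent.H79.PSLSpec
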